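import Cfsg.Agent.XL.Fac2
import Cfsg.Agent.TT.LargeS

/-! # The local hypothesis for the recognition of the Held group -/

set_option autoImplicit false

namespace Cfsg.Agent.HeR

open Cfsg Cfsg.Agent.GT Cfsg.Agent.TT Cfsg.Agent.TC Cfsg.Agent.XL Subgroup

/-- letters of the extraspecial group -/
def Rl : List ℕ := [0, 1, 2, 3, 6, 8, 9]

/-- relators of the extraspecial group -/
def relR : List (List ℕ) := [[0, 1, 0, 1], [0, 2, 0, 2], [0, 3, 0, 3], [0, 6, 0, 6, 3], [0, 8, 0, 8],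
  [0, 9, 0, 9], [1, 2, 1, 2], [1, 3, 1, 3], [1, 6, 1, 6], [1, 8, 1, 8, 3], [1, 9, 1, 9], [2, 3, 2, 3],
  [2, 6, 2, 6], [2, 8, 2, 8], [2, 9, 2, 9, 3], [3, 6, 3, 6], [3, 8, 3, 8], [3, 9, 3, 9], [6, 8, 6, 8],
  [6, 9, 6, 9], [8, 9, 8, 9]]

/-- action of the first generator -/
def actA : List (ℕ × List ℕ) := [(0, [0, 2]), (1, [1]), (2, [2]), (6, [6]), (8, [8]), (9, [6, 9])]

/-- action of the second generator -/
def actB : List (ℕ × List ℕ) := [(0, [0, 1]), (1, [0]), (2, [0, 2]), (6, [8]), (8, [6, 8, 9]), (9, [9])]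

/-- The local hypothesis. -/
structure HH {H : Type*} [Group H] (R : Subgroup H) (r : ℕ → H) (da db g1 g2 : H) : Prop where
  lq : LQ R (r 3)
  cR : Nat.card R = 128
  cD : Nat.card C1[r 3] = 21504
  o2 : Op 2 C1[r 3] = R
  gen : R = Mb r Rl
  sq : ∀ i ∈ Rl, r i * r i = 1
  rel : ∀ l ∈ relR, evl r l = 1
  a : da ∈ C1[r 3]
  b : db ∈ C1[r 3]
  ca : ∀ p ∈ actA, da * r p.1 * da⁻¹ = evl r p.2 ∨ da * r p.1 * da⁻¹ = evl r p.2 * r 3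
  cb : ∀ p ∈ actB, db * r p.1 * db⁻¹ = evl r p.2 ∨ db * r p.1 * db⁻¹ = evl r p.2 * r 3
  s1 : g1 * r 3 * g1⁻¹ = r 2
  s2 : g2 * r 3 * g2⁻¹ = r 6
  n1 : r 2 ≠ r 3
  n2 : r 6 ≠ r 3
  e1 : r 0 * r 8 ∈ cj[g1] R
  e2 : r 1 * r 6 ∈ cj[g1] R
  f1 : r 2 * r 8 ∈ cj[g2] R
  f2 : r 1 * r 9 ∈ cj[g2] R
  nc : ¬ IsConj (r 3) (r 2 * r 6)
  c9 : IsConj (r 3) (r 9)
  aS : da ∈ cj[g1] R

end Cfsg.Agent.HeR
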