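import Cfsg.Agent.XL.Fac2
import Cfsg.Agent.PG.Basic

/-! # Polycyclic enumeration of 2-groups in a permutation model -/

set_option autoImplicit false

namespace Cfsg.Agent.HeR

open Cfsg Cfsg.Agent.GT Cfsg.Agent.TT Cfsg.Agent.TC Cfsg.Agent.XL Cfsg.Agent.M24 Subgroup MulAction

variable {X Ω : Type*} [Group X] [MulAction X Ω] {idx : Ω → ℕ} {m : ℕ → X} {f : ℕ → ℕ → ℕ} {k n : ℕ}
  {bs l c : List ℕ}

/-- all subwords of `l`, followed by `c` -/
noncomputable def allS (l c : List ℕ) (P : List ℕ → Bool) : Bool :=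
  List.rec (motive := fun _ => (List ℕ → Bool) → Bool) (fun P => P c)
    (fun x _ ih P => band (ih P) (ih fun w => P (x :: w))) l P

/-- some subword of `l`, followed by `c` -/
noncomputable def anyS (l c : List ℕ) (P : List ℕ → Bool) : Bool :=
  List.rec (motive := fun _ => (List ℕ → Bool) → Bool) (fun P => P c)
    (fun x _ ih P => bor (ih P) (ih fun w => P (x :: w))) l P

theorem allS_iff : ∀ {l : List ℕ} {P : List ℕ → Bool},
    allS l c P = true ↔ ∀ w, w.Sublist l → P (w ++ c) = true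
  | [], P => by simp [allS]
  | x :: l, P => by
    have e : allS (x :: l) c P = band (allS l c P) (allS l c fun w => P (x :: w)) := rfl
    rw [e, band_eq, Bool.and_eq_true, allS_iff, allS_iff]
    refine ⟨fun h w hw => ?_, fun h => ⟨fun w hw => h w (hw.cons _), fun w hw => h (x :: w) (hw.cons₂ _)⟩⟩
    rcases List.sublist_cons_iff.1 hw with a | ⟨r, rfl, a⟩
    exacts [h.1 w a, h.2 r a]

theorem anyS_iff : ∀ {l : List ℕ} {P : List ℕ → Bool},
    anyS l c P = true ↔ ∃ w, w.Sublist l ∧ P (w ++ c) = true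
  | [], P => by simp [anyS]
  | x :: l, P => by
    have e : anyS (x :: l) c P = bor (anyS l c P) (anyS l c fun w => P (x :: w)) := rfl
    rw [e, bor_eq, Bool.or_eq_true, anyS_iff, anyS_iff]
    refine ⟨fun h => ?_, fun ⟨w, hw, h⟩ => ?_⟩
    · rcases h with ⟨w, a, b⟩ | ⟨w, a, b⟩
      exacts [⟨w, a.cons _, b⟩, ⟨x :: w, a.cons₂ _, b⟩]
    · rcases List.sublist_cons_iff.1 hw with a | ⟨r, rfl, a⟩
      exacts [Or.inl ⟨w, a, h⟩, Or.inr ⟨r, a, h⟩]

/-- the word equals a subword of `l` -/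
noncomputable def inS (f : ℕ → ℕ → ℕ) (k : ℕ) (bs l w : List ℕ) : Bool := anyS l [] (eqw f k bs w)

theorem inS_mem (h : Md idx m f k bs) {w : List ℕ} (e : inS f k bs l w = true) : evl m w ∈ Mb m l := by
  obtain ⟨u, a, b⟩ := anyS_iff.1 e
  rw [h.eq b, List.append_nil]
  exact Mb.ev a.subset

/-- polycyclic sequence -/
noncomputable def pcChk (f : ℕ → ℕ → ℕ) (k : ℕ) (bs l : List ℕ) : Bool :=
  List.rec (motive := fun _ => Bool) true (fun x l ih => band ih (band (band (llt k [x]) (!inS f k bs l [x]))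
    (band (inS f k bs l [x, x]) (lall l fun y => anyS l [] fun w => eqw f k bs [y, x] (x :: w))))) l

/-- every element is a subword -/
def PC (m : ℕ → X) (k : ℕ) (l : List ℕ) : Prop :=
  (∀ i ∈ l, i < k) ∧ (∀ g ∈ Mb m l, ∃ w, w.Sublist l ∧ evl m w = g) ∧ Nat.card (Mb m l) = 2 ^ l.length

theorem Mb_cons {D : Type*} [Group D] (u : ℕ → D) (x : ℕ) (l : List ℕ) :
    Mb u (x :: l) = Mb u l ⊔ zpowers (u x) :=
  le_antisymm (Mb.le fun i hi => (List.mem_cons.1 hi).elim (fun e => e ▸ mem_sup_right (mem_zpowers _))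
    fun h => mem_sup_left (Mb.of h)) (sup_le (Mb.mono fun _ => List.mem_cons_of_mem _)
      (zpowers_le.2 (Mb.of List.mem_cons_self)))

theorem PC.inS (p : PC m k l) (h : Md idx m f k bs) (hn : Md.Num idx n bs) {w : List ℕ}
    (hw : ∀ i ∈ w, i < k) (e : evl m w ∈ Mb m l) : inS f k bs l w = true := by
  obtain ⟨u, a, b⟩ := p.2.1 _ e
  exact anyS_iff.2 ⟨u, a, (h.eq_iff hn).2 ⟨⟨hw, by simpa using fun i hi => p.1 i (a.subset hi)⟩, by simp [b]⟩⟩

theorem pc_of [Finite X] (h : Md idx m f k bs) (hn : Md.Num idx n bs) :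
    ∀ {l : List ℕ}, pcChk f k bs l = true → PC m k l
  | [], _ => ⟨by simp, fun g hg => ⟨[], List.Sublist.refl _, by
      rw [show Mb m [] = ⊥ from eq_bot_iff.2 (Mb.le (by simp))] at hg; exact (mem_bot.1 hg).symm⟩, card_nil⟩
  | x :: l, hc => by
    have e : pcChk f k bs (x :: l) = band (pcChk f k bs l) (band (band (llt k [x]) (!inS f k bs l [x]))
      (band (inS f k bs l [x, x]) (lall l fun y => anyS l [] fun w => eqw f k bs [y, x] (x :: w)))) := rfl
    simp only [e, band_eq, Bool.and_eq_true, llt_iff, lall_iff, anyS_iff, Bool.not_eq_true',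
      ← Bool.not_eq_true, List.append_nil] at hc
    obtain ⟨h0, ⟨h1, h2⟩, h3, h4⟩ := hc
    have p := pc_of h hn h0
    have a1 : m x ∉ Mb m l := fun a => h2 (p.inS h hn h1 (by simpa [evl] using a))
    have a2 : m x ^ 2 ∈ Mb m l := by simpa [evl, sq] using inS_mem h h3
    have a3 : m x ∈ N[Mb m l] := Mb.norm fun i hi => by
      obtain ⟨w, a, b⟩ := h4 i hi
      have := h.eq b
      simp only [evl, one_mul] at this
      rw [this, mul_inv_cancel_right]; exact Mb.ev a.subset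
    refine ⟨fun i hi => (List.mem_cons.1 hi).elim (fun e => h1 i (by simp [e])) (p.1 i), fun g hg => ?_, ?_⟩
    · rw [Mb_cons, mem_sup_of_le_norm' (zpowers_le.2 a3)] at hg
      obtain ⟨a, ha, _, ⟨j, rfl⟩, rfl⟩ := hg
      have b : ∀ i : ℤ, a * (m x ^ 2) ^ i ∈ Mb m l := fun i => mul_mem ha (zpow_mem a2 i)
      rcases Int.even_or_odd' j with ⟨i, rfl | rfl⟩
      · obtain ⟨w, c, d⟩ := p.2.1 _ (b i)
        exact ⟨w, c.cons _, by beta_reduce; rw [d, zpow_mul]; norm_cast⟩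
      · obtain ⟨w, c, d⟩ := p.2.1 _ (b i)
        exact ⟨x :: w, c.cons₂ _, by beta_reduce; rw [evl, d, zpow_add, zpow_mul, zpow_one, mul_assoc]; norm_cast⟩
    · rw [Mb_cons, PG.card_sup_zpowers Nat.prime_two a3 a2 a1, p.2.2, List.length_cons, pow_succ']

theorem PC.all (p : PC m k l) {P : List ℕ → Bool} (hc : allS l [] P = true) :
    ∀ g ∈ Mb m l, ∃ w, (∀ i ∈ w, i ∈ l) ∧ (∀ i ∈ w, i < k) ∧ evl m w = g ∧ P w = true := fun g hg => by
  obtain ⟨w, a, b⟩ := p.2.1 g hg
  exact ⟨w, a.subset, fun i hi => p.1 i (a.subset hi), b, by simpa using allS_iff.1 hc w a⟩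

/-- correction of the action on a list of elements by partners -/
theorem adjust {D : Type*} [Group D] {σ x : D} {v u : ℕ → D} {P : ℕ → D → Prop} (ss : σ * σ = 1)
    (hx : Commute x σ) {ls : List ℕ} (hv : ∀ p ∈ ls, Commute (u p) σ)
    (hu : ∀ p ∈ ls, ∀ q ∈ ls, u p * v q * (u p)⁻¹ = if p = q then v q * σ else v q)
    (h : ∀ q ∈ ls, P q (x * v q * x⁻¹) ∨ P q (x * v q * x⁻¹ * σ)) :
    ∃ y ∈ Mb u ls, ∀ q ∈ ls, P q (x * y * v q * (x * y)⁻¹) := by
  classical
  have key : ∀ l : List ℕ, l.Nodup → (∀ p ∈ l, p ∈ ls) → ∃ y ∈ Mb u ls, Commute y σ ∧ ∀ q ∈ ls,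
      y * v q * y⁻¹ = if q ∈ l then v q * σ else v q := fun l => by
    induction l with
    | nil => exact fun _ _ => ⟨1, one_mem _, Commute.one_left _, by simp⟩
    | cons p l ih =>
      intro n hl
      obtain ⟨y, a, b, c⟩ := ih n.of_cons fun q hq => hl q (List.mem_cons_of_mem _ hq)
      have hp := hl p List.mem_cons_self
      refine ⟨y * u p, mul_mem a (Mb.of hp), b.mul_left (hv p hp), fun q hq => ?_⟩
      rw [show y * u p * v q * (y * u p)⁻¹ = y * (u p * v q * (u p)⁻¹) * y⁻¹ by group, hu p hp q hq]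
      by_cases e : p = q
      · subst e
        rw [if_pos rfl, if_pos List.mem_cons_self, ← mul_assoc, mul_assoc, ← b.inv_left.eq, ← mul_assoc, c p hq,
          if_neg (List.nodup_cons.1 n).1]
      · rw [if_neg e, c q hq]; simp [Ne.symm e]
  obtain ⟨y, a, -, c⟩ := key (ls.dedup.filter fun q => ¬ P q (x * v q * x⁻¹)) ((List.nodup_dedup _).filter _)
    fun p hp => List.mem_dedup.1 (List.mem_of_mem_filter hp)
  refine ⟨y, a, fun q hq => ?_⟩
  rw [show x * y * v q * (x * y)⁻¹ = x * (y * v q * y⁻¹) * x⁻¹ by group, c q hq]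
  by_cases e : P q (x * v q * x⁻¹)
  · rw [if_neg (by simp [e])]; exact e
  · rw [if_pos (by simp [e, hq]), ← mul_assoc, mul_assoc, ← hx.inv_left.eq, ← mul_assoc]
    exact (h q hq).resolve_left e

theorem inj_of_card {D D' : Type*} [Group D] [Group D'] [Finite D] {S : Subgroup D} {φ : D →* D'}
    (h : Nat.card S ≤ Nat.card (S.map φ)) : ∀ p ∈ S, φ p = 1 → p = 1 := fun p hp e => by
  have := ((φ.subgroupMap_surjective S).bijective_of_nat_card_le h).1
  exact congrArg Subtype.val ((injective_iff_map_eq_one _).1 this ⟨p, hp⟩ (Subtype.ext e))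

theorem idx_model [Finite X] (d : Md idx m f k bs) {iv : ℕ → ℕ} (hm : ∀ i < k, iv i < k ∧ m (iv i) * m i = 1)
    {ls ls0 : List ℕ} {base : List (List ℕ)} {iv' : ℕ → ℕ} {k' sub N : ℕ} (hC : Cert k' iv' base sub N)
    (hk : ls.length = k') (hc : stepChk f iv k bs [ls] [] ls ls0 iv' base sub = true) :
    Nat.card (Mb m ls) ≤ Nat.card (Mb m ls0) * N := by
  have a : AM m (fun i => (m i, (1 : Unit))) iv k :=
    ⟨fun _ _ => rfl, fun i hi => ⟨(hm i hi).1, Prod.ext (hm i hi).2 rfl⟩⟩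
  obtain ⟨h1, h2, -, h4⟩ := a.idx_le d hC hk (fun _ _ p _ e => Prod.ext e rfl) (by simp) hc
  have e : ∀ l : List ℕ, Nat.card (Mb m l) = Nat.card (Mb (fun i => (m i, (1 : Unit))) l) := fun l => by
    rw [← card_map_of (φ := MonoidHom.fst X Unit) fun p _ e => Prod.ext e rfl, Mb.map]; rfl
  rw [e, e, ← card_mul_relIndex h2]
  exact Nat.mul_le_mul_left _ h4

end Cfsg.Agent.HeR
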