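import Cfsg.Agent.HeR.X
import Cfsg.Agent.HeR.F
import Cfsg.Agent.HeR.Pc
import Cfsg.Agent.HeR.TY
import Cfsg.Agent.HeR.TM

/-! # Facts on the model of the Held group -/

set_option autoImplicit false
set_option maxRecDepth 100000

namespace Cfsg.Agent.HeR

open Cfsg Cfsg.Agent.GT Cfsg.Agent.TT Cfsg.Agent.TC Cfsg.Agent.XL Cfsg.Agent.M24 Subgroup MulAction

/-- letters -/
def Yl : List ℕ := [2, 3, 5, 6]
/-- letters -/
def W2 : List ℕ := [1, 4, 2, 3, 5, 6]
/-- letters -/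
def W3 : List ℕ := [7, 8, 2, 3, 5, 6]
/-- letters -/
def Jl : List ℕ := [1, 4, 7, 8, 2, 3, 5, 6]
/-- letters -/
def Ul : List ℕ := [12, 1, 4, 7, 8, 2, 3, 5, 6]
/-- letters -/
def Tl : List ℕ := [9, 0, 1, 4, 7, 8, 2, 3, 5, 6]
/-- letters -/
def Vl : List ℕ := [27, 28]
/-- letters -/
def Kl : List ℕ := [0, 1, 2, 3, 6, 8, 9, 5, 25, 26]
/-- letters -/
def Dl : List ℕ := [0, 1, 2, 3, 4, 5, 6, 7, 8, 9, 10, 11, 12, 15, 16, 17, 18, 23, 24, 25, 26, 27, 28]
/-- letters -/
def Ll : List ℕ := [1, 2, 3, 4, 5, 6, 7, 8, 21, 22]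
/-- letters -/
def Ml : List ℕ := [1, 2, 3, 4, 5, 6, 7, 8, 12, 19, 20, 21, 22]
/-- inverse letters -/
def iv (i : ℕ) : ℕ := if i = 25 then 26 else if i = 26 then 25 else i
/-- membership -/
noncomputable abbrev ins : List ℕ → List ℕ → Bool := inS fA 29 bs
/-- witness word -/
noncomputable def wit (t : ℕ → ℕ) (w : List ℕ) (P : List ℕ → Bool) : Bool :=
  force (ky 2058 bs (apl fA w)) fun q => force (t q) fun a => P (dw a)

theorem wit_ex {t : ℕ → ℕ} {w : List ℕ} {P : List ℕ → Bool} (h : wit t w P = true) : ∃ g, P g = true := by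
  simp only [wit, force_eq] at h; exact ⟨_, h⟩

theorem pc {l : List ℕ} (h : pcChk fA 29 bs l = true) : PC m 29 l := pc_of md num h
theorem pcT : PC m 29 Tl := pc (by decide +kernel)
theorem pcR : PC m 29 Rl := pc (by decide +kernel)
theorem pcJ : PC m 29 Jl := pc (by decide +kernel)
theorem pcU : PC m 29 Ul := pc (by decide +kernel)
theorem pcV : PC m 29 Vl := pc (by decide +kernel)

variable {w w' g l : List ℕ} {x y : X}

theorem cb_of (hw : ∀ i ∈ w, i < 29) (hw' : llt 29 w' = true) (h : Commute (evl m w) (evl m w')) : cb w w' = true :=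
  (md.cm_iff num).2 ⟨⟨hw, llt_iff.1 hw'⟩, h⟩

theorem cb1 (hw : ∀ i ∈ w, i < 29) {i : ℕ} (hi : i < 29) (h : Commute (evl m w) (m i)) : cb w [i] = true :=
  (md.cm_iff num).2 ⟨⟨hw, by simpa using hi⟩, by rwa [ev1]⟩

theorem cm_of (h : cb w w' = true) : Commute (evl m w) (evl m w') := ((md.cm_iff num).1 h).2

theorem eq_of (hw : ∀ i ∈ w, i < 29) (hw' : ∀ i ∈ w', i < 29) (h : evl m w = evl m w') : eq w w' = true :=
  (md.eq_iff num).2 ⟨⟨hw, hw'⟩, h⟩

theorem sq_of (hw : ∀ i ∈ w, i < 29) (h : evl m w * evl m w = 1) : eq (w ++ w) [] = true :=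
  eq_of (by simpa [or_imp] using hw) (by simp) (by rw [evl_append, h]; rfl)

theorem cj_of (h : eq (w ++ g) (g ++ w') = true) : evl m g * evl m w * (evl m g)⁻¹ = evl m w' := by
  have := md.eq h
  rw [evl_append, evl_append] at this
  rw [this, mul_inv_cancel_right]

theorem ic_of {i : ℕ} (h : eq (w ++ g) (g ++ [i]) = true) : IsConj (m i) (evl m w) :=
  (isConj_iff.2 ⟨_, (cj_of h).trans (ev1 i)⟩).symm

theorem minv : ∀ i < 29, iv i < 29 ∧ m (iv i) * m i = 1 := fun i hi => by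
  have : ∀ i < 29, iv i < 29 ∧ eq [i, iv i] [] = true := by decide +kernel
  exact ⟨(this i hi).1, by simpa [evl] using md.eq (this i hi).2⟩

/-- the centralizer of the central involution -/
noncomputable abbrev D0 : Subgroup X := Mb m Kl

theorem DK : ∀ i ∈ Dl, m i ∈ D0 := fun i hi => by
  have : ∀ i ∈ Dl, lsub (wK.getD i []) Kl = true ∧ eq [i] (wK.getD i []) = true := by decide +kernel
  rw [← ev1, md.eq (this i hi).2]; exact Mb.ev' (this i hi).1

theorem leD (h : lsub l Dl = true) : Mb m l ≤ D0 := Mb.le fun i hi => DK i (lsub_iff.1 h i hi)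

theorem cardD : 21504 ≤ Nat.card D0 := by
  have a : 1024 ∣ Nat.card D0 := pcT.2.2.symm.dvd.trans (card_dvd_of_le (leD (by decide +kernel)))
  have b : 3 ∣ Nat.card D0 := md.ord (w := [25]) num Nat.prime_three (by decide +kernel) ▸
    orderOf_dvd_natCard D0 (Mb.ev' (by decide +kernel))
  have c : 7 ∣ Nat.card D0 := md.ord (w := [5, 25]) (p := 7) num (by norm_num) (by decide +kernel) ▸
    orderOf_dvd_natCard D0 (Mb.ev' (by decide +kernel))
  exact Nat.le_of_dvd Nat.card_pos (Nat.Coprime.mul_dvd_of_dvd_of_dvd (m := 1024 * 3) (by norm_num)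
    (Nat.Coprime.mul_dvd_of_dvd_of_dvd (by norm_num) a b) c)

theorem allD {P : List ℕ → Bool} (hc : cs.all (fun c => allS Tl c P) = true) :
    ∀ g ∈ D0, ∃ w, (∀ i ∈ w, i < 29) ∧ evl m w = g ∧ P w = true := fun g hg => by
  have h : ∀ c ∈ cs, llt 29 c = true ∧ ∀ i ∈ Kl, wit witD (c ++ [i]) (fun w => band (lsub w Tl)
      (cs.any fun c' => eq (c ++ [i]) (w ++ c'))) = true := by decide +kernel
  obtain ⟨c, h1, t, h2, e⟩ := closure_smul_mem (X := X) (E := {g | ∃ c ∈ cs, ∃ t ∈ Mb m Tl, g = evl m c * t})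
    (Set.toFinite _) (by
      rintro _ ⟨i, hi, rfl⟩ _ ⟨c, h1, t, h2, rfl⟩
      obtain ⟨w, hw⟩ := wit_ex ((h c h1).2 i hi)
      simp only [band_eq, Bool.and_eq_true, List.any_eq_true] at hw
      obtain ⟨a, c', b, e⟩ := hw
      have := md.eq e
      rw [evl_append, evl_append, ev1] at this
      exact ⟨c', b, _, mul_mem (Mb.ev' a) h2, by rw [smul_eq_mul, ← mul_assoc, this, mul_assoc]⟩) g hg 1
      ⟨[], by decide, 1, one_mem _, (one_mul _).symm⟩
  obtain ⟨w, a, rfl⟩ := pcT.2.1 t h2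
  refine ⟨w ++ c, List.forall_mem_append.2 ⟨fun i hi => pcT.1 i (a.subset hi), llt_iff.1 (h c h1).1⟩, ?_,
    allS_iff.1 (List.all_eq_true.1 hc c h1) w a⟩
  rw [evl_append, ← e, smul_eq_mul, mul_one]

theorem cenU : ∀ g ∈ D0, Commute g (m 27) → g ∈ Mb m Ul := fun g hg h => by
  obtain ⟨w, a, rfl, e⟩ := allD (P := fun w => bor (!cb w [27]) (bor (lsub w Ul)
    (band (lsub (w.drop 2) Ul) (eq w (12 :: w.drop 2))))) (by decide +kernel) g hg
  simp only [cb1 a (by norm_num) h, bor_eq, band_eq, Bool.not_true, Bool.false_or, Bool.or_eq_true,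
    Bool.and_eq_true] at e
  rcases e with e | e
  · exact Mb.ev' e
  · rw [md.eq e.2]; exact mul_mem (Mb.ev' e.1) (Mb.of (by decide))

/-- commutator in `⟨s⟩` -/
def Cm {D : Type*} [Group D] (x e s : D) : Prop := x * e * x⁻¹ = e ∨ x * e * x⁻¹ = e * s

/-- commutator in `⟨s⟩` -/
noncomputable def cme (w : List ℕ) (e s : ℕ) : Bool := bor (eq (e :: w) (w ++ [e])) (eq (e :: w) (w ++ [s, e]))

theorem cme_of (hw : ∀ i ∈ w, i < 29) {e s : ℕ} (he : e < 29) (hs : s < 29) (h : Cm (evl m w) (m e) (m s)) :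
    cme w e s = true := by
  rw [cme, bor_eq, Bool.or_eq_true]
  refine h.imp (fun h => eq_of ?_ ?_ ?_) fun h => eq_of ?_ ?_ ?_ <;>
    first | simpa [or_imp, forall_and, he, hs] using hw | simpa [evl, evl_append, mul_inv_eq_iff_eq_mul] using h

theorem achar {s e1 e2 : ℕ} (h1 : s < 29 ∧ e1 < 29 ∧ e2 < 29) (hc : cs.all (fun c => allS Tl c fun w =>
    bor (!cb w [s]) (bor (!cme w e1 s) (bor (!cme w e2 s) (ins l w)))) = true) :
    ∀ g ∈ D0, Commute g (m s) → Cm g (m e1) (m s) → Cm g (m e2) (m s) → g ∈ Mb m l := fun g hg b c d => by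
  obtain ⟨w, a, rfl, e⟩ := allD hc g hg
  simp only [cb1 a h1.1 b, cme_of a h1.2.1 h1.1 c, cme_of a h1.2.2 h1.1 d, bor_eq, Bool.not_true,
    Bool.false_or] at e
  exact inS_mem md e

theorem achar1 : ∀ g ∈ D0, Commute g (m 2) → Cm g (m 15) (m 2) → Cm g (m 16) (m 2) →
    g ∈ Mb m [5, 7, 15, 16, 2, 3] := achar (by decide) (by decide +kernel)

theorem achar2 : ∀ g ∈ D0, Commute g (m 6) → Cm g (m 17) (m 6) → Cm g (m 18) (m 6) →
    g ∈ Mb m [4, 5, 17, 18, 6, 3] := achar (by decide) (by decide +kernel)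

theorem e27 : m 27 = m 2 * m 6 := by simpa [evl] using md.eq (w := [27]) (w' := [6, 2]) (by decide +kernel)
theorem e28 : m 28 = m 2 * m 3 * m 5 := by
  simpa [evl] using md.eq (w := [28]) (w' := [5, 3, 2]) (by decide +kernel)

theorem all_cb (hw : ∀ i ∈ w, i < 29) (hl : ∀ i ∈ l, i < 29) (h : ∀ i ∈ l, Commute (evl m w) (m i)) :
    lall l (fun i => cb w [i]) = true := (lall_iff _ _).2 fun i hi => cb1 hw (hl i hi) (h i hi)

theorem cenR : ∀ g ∈ D0, (∀ i ∈ Rl, Commute g (m i)) → g = 1 ∨ g = m 3 := fun g hg h => by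
  obtain ⟨w, -, a, rfl, e⟩ := pcU.all (P := fun w => bor (!lall Rl fun i => cb w [i]) (bor (eq w []) (eq w [3])))
    (by decide +kernel) g (cenU g hg (e27 ▸ (h 2 (by decide)).mul_right (h 6 (by decide))))
  simp only [all_cb a (by decide) h, bor_eq, Bool.not_true, Bool.false_or, Bool.or_eq_true] at e
  exact e.imp md.eq fun e => (md.eq e).trans (ev1 3)

theorem cenV : ∀ g ∈ D0, Commute g (m 27) → Commute g (m 28) → g ∈ Mb m Jl := fun g hg h h' => by
  obtain ⟨w, -, a, rfl, e⟩ := pcU.all (P := fun w => bor (!cb w [28]) (lsub w Jl)) (by decide +kernel) g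
    (cenU g hg h)
  simp only [cb1 a (by norm_num) h', bor_eq, Bool.not_true, Bool.false_or] at e
  exact Mb.ev' e

theorem cenY : ∀ g ∈ D0, (∀ i ∈ Yl, Commute g (m i)) → g ∈ Mb m Jl := fun g hg h =>
  cenV g hg (e27 ▸ (h 2 (by decide)).mul_right (h 6 (by decide)))
    (e28 ▸ ((h 2 (by decide)).mul_right (h 3 (by decide))).mul_right (h 5 (by decide)))

theorem cenW (h1 : band (band (lsub Yl l) (llt 29 l)) (llt 29 w) = true)
    (hc : allS Jl [] (fun u => bor (!lall l fun i => cb u [i]) (band (ins l u) (bor (!cb u w) (eq u [])))) = true) :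
    ∀ g ∈ D0, (∀ i ∈ l, Commute g (m i)) → g ∈ Mb m l ∧ (Commute g (evl m w) → g = 1) := fun g hg h => by
  simp only [band_eq, Bool.and_eq_true, lsub_iff] at h1
  obtain ⟨u, -, a, rfl, e⟩ := pcJ.all hc g (cenY g hg fun i hi => h i (h1.1.1 i hi))
  simp only [all_cb a (llt_iff.1 h1.1.2) h, bor_eq, band_eq, Bool.not_true, Bool.false_or, Bool.and_eq_true] at e
  exact ⟨inS_mem md e.1, fun c => md.eq (by simpa [cb_of a h1.2 c] using e.2)⟩

theorem clsT : ∀ x ∈ Mb m Tl, x * x = 1 → x ≠ 1 → IsConj (m 3) x ∨ IsConj (m 27) x := fun x hx h h1 => by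
  obtain ⟨w, -, a, rfl, e⟩ := pcT.all (P := fun w => bor (!eq (w ++ w) []) (bor (eq w []) (wit witC w fun g =>
    bor (eq (w ++ g) (g ++ [3])) (eq (w ++ g) (g ++ [27]))))) (by decide +kernel) x hx
  simp only [sq_of a h, bor_eq, Bool.not_true, Bool.false_or, Bool.or_eq_true] at e
  obtain ⟨g, e⟩ := wit_ex (e.resolve_left fun e => h1 (md.eq e))
  exact (Bool.or_eq_true _ _ ▸ e).imp ic_of ic_of

theorem clsU : ∀ x ∈ Mb m Ul, x * x = 1 → x ∈ Mb m Jl ∨ IsConj (m 27) x := fun x hx h => by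
  obtain ⟨w, -, a, rfl, e⟩ := pcU.all (P := fun w => bor (!eq (w ++ w) []) (bor (lsub w Jl) (wit witC w fun g =>
    eq (w ++ g) (g ++ [27])))) (by decide +kernel) x hx
  simp only [sq_of a h, bor_eq, Bool.not_true, Bool.false_or, Bool.or_eq_true] at e
  exact e.imp Mb.ev' fun e => let ⟨_, e⟩ := wit_ex e; ic_of e

theorem clsJ : ∀ x ∈ Mb m Jl, x * x = 1 → x ∈ Mb m Vl ∨ IsConj (m 3) x ∨ IsConj (m 3) (x * m 27) :=
    fun x hx h => by
  obtain ⟨w, -, a, rfl, e⟩ := pcJ.all (P := fun w => bor (!eq (w ++ w) []) (bor (ins Vl w) (bor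
    (wit witC w fun g => eq (w ++ g) (g ++ [3])) (wit witC (27 :: w) fun g => eq (27 :: w ++ g) (g ++ [3])))))
    (by decide +kernel) x hx
  simp only [sq_of a h, bor_eq, Bool.not_true, Bool.false_or, Bool.or_eq_true] at e
  exact e.imp (inS_mem md) (Or.imp (fun e => let ⟨_, e⟩ := wit_ex e; ic_of e)
    fun e => let ⟨_, e⟩ := wit_ex e; ic_of (w := 27 :: w) e)

theorem clsY : ∀ x ∈ Mb m Jl, x * x ∈ Mb m Vl → x ∉ Mb m Vl →
    ∃ g ∈ Mb m Ll, ∃ u ∈ Mb m Vl, g * x * g⁻¹ = u * m 3 := fun x hx h h1 => by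
  obtain ⟨w, -, a, rfl, e⟩ := pcJ.all (P := fun w => bor (!ins Vl (w ++ w)) (bor (ins Vl w) (wit witY w fun g =>
    band (lsub g Ll) (anyS Vl [] fun u => eq (w ++ g) (g ++ 3 :: u))))) (by decide +kernel) x hx
  simp only [pcV.inS md num (w := w ++ w) (by simpa [or_imp] using a) (by rwa [evl_append]), bor_eq, Bool.not_true,
    Bool.false_or, Bool.or_eq_true] at e
  obtain ⟨g, e⟩ := wit_ex (e.resolve_left fun e => h1 (inS_mem md e))
  simp only [Bool.and_eq_true, band_eq, anyS_iff, List.append_nil] at e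
  obtain ⟨b, u, c, d⟩ := e
  exact ⟨_, Mb.ev' b, _, Mb.ev c.subset, cj_of d⟩

theorem sylT : IsPiHallOf {2} (Mb m Tl) ⊤ :=
  syl_card (a := 10) (b := 3935925) Nat.prime_two le_top pcT.2.2 exA.2.2 (by norm_num)

theorem clsX : ∀ x : X, x * x = 1 → x ≠ 1 → IsConj (m 3) x ∨ IsConj (m 27) x := fun x =>
  cls_of_syl (P := fun x => IsConj (m 3) x ∨ IsConj (m 27) x) sylT (fun g _ _ h => h.imp
    (·.trans (isConj_iff.2 ⟨g, rfl⟩).symm) (·.trans (isConj_iff.2 ⟨g, rfl⟩).symm)) clsT x trivial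

theorem cardL : Nat.card (Mb m Ll) = 80640 := by
  have h := idx_model md minv (ls := Ll) (ls0 := Jl) HeRTY.cert rfl (by decide +kernel)
  rw [pcJ.2.2] at h
  have a : 256 ∣ Nat.card (Mb m Ll) := pcJ.2.2.symm.dvd.trans (card_dvd_of_le (Mb.mono (by decide)))
  have b : 5 ∣ Nat.card (Mb m Ll) := md.ord (w := [4, 21, 22]) (p := 5) num (by norm_num) (by decide +kernel) ▸
    orderOf_dvd_natCard _ (Mb.ev' (by decide +kernel))
  have c : 7 ∣ Nat.card (Mb m Ll) := md.ord (w := [3, 21, 22]) (p := 7) num (by norm_num) (by decide +kernel) ▸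
    orderOf_dvd_natCard _ (Mb.ev' (by decide +kernel))
  have o1 := md.ord (w := [1, 22]) num Nat.prime_three (by decide +kernel)
  have o2 := md.ord (w := [5, 21, 22, 4, 7, 21]) num Nat.prime_three (by decide +kernel)
  have d : 9 ∣ Nat.card (Mb m Ll) := by
    have := PG.card_sup_zpowers (K := zpowers (evl m [1, 22])) (x := evl m [5, 21, 22, 4, 7, 21]) Nat.prime_three
      (centralizer_le_normalizer _ (by
        rw [cent_zpowers]; exact mem_cent1.2 (cm_of (by decide +kernel))))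
      (by rw [← o2, pow_orderOf_eq_one]; exact one_mem _) (fun h => by
        obtain ⟨j, hj, e⟩ : ∃ j < 3, evl m [1, 22] ^ j = evl m [5, 21, 22, 4, 7, 21] := by
          obtain ⟨j, e⟩ := mem_powers_iff_mem_zpowers.2 h
          exact ⟨j % 3, Nat.mod_lt _ (by norm_num), by rw [← o1, pow_mod_orderOf]; exact e⟩
        rw [← evl_pww] at e
        interval_cases j <;> exact md.ne' num (by decide +kernel) e)
    rw [Nat.card_zpowers, o1] at this
    exact this.symm.dvd.trans (card_dvd_of_le (sup_le (zpowers_le.2 (Mb.ev' (by decide +kernel)))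
      (zpowers_le.2 (Mb.ev' (by decide +kernel)))))
  exact le_antisymm h (Nat.le_of_dvd Nat.card_pos (Nat.Coprime.mul_dvd_of_dvd_of_dvd (m := 256 * 9 * 5)
    (by norm_num) (Nat.Coprime.mul_dvd_of_dvd_of_dvd (by norm_num)
      (Nat.Coprime.mul_dvd_of_dvd_of_dvd (by norm_num) a d) b) c))

theorem cardM : Nat.card (Mb m Ml) ≤ 483840 := by
  have h := idx_model md minv (ls := [1, 2, 3, 4, 5, 6, 7, 8, 21, 22, 12, 19, 20]) (ls0 := Ll) HeRTM.cert rfl (by decide +kernel)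
  rw [cardL] at h
  exact (card_le_of_le (Mb.mono (by decide))).trans h

theorem no35 : ∀ a ∈ Mb m Ll, ∀ b : X, orderOf a = 5 → orderOf b = 7 → ¬ Commute a b := fun a ha b h5 h7 h => by
  have o := md.ord (w := [4, 21, 22]) (p := 5) num (by norm_num) (by decide +kernel)
  obtain ⟨g, -, hg⟩ := syl_elt (p := 5) (a := 1) (by norm_num) (syl_card (p := 5) (a := 1) (b := 16128) (by norm_num)
    (zpowers_le.2 (Mb.ev' (w := [4, 21, 22]) (by decide +kernel))) ((Nat.card_zpowers _).trans o) cardL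
    (by norm_num)) ha (by rw [pow_one, ← h5, pow_orderOf_eq_one])
  have e : zpowers (g * a * g⁻¹) = zpowers (evl m [4, 21, 22]) := eq_of_le_of_card_ge (zpowers_le.2 hg) (by
    rw [Nat.card_zpowers, Nat.card_zpowers, o, ← h5]; exact (MulAut.conj g).orderOf_eq a |>.ge)
  have c : Commute (g * b * g⁻¹) (evl m [4, 21, 22]) :=
    comm_zp (h.symm.map (MulAut.conj g)) (e ▸ mem_zpowers _)
  have o7 : orderOf (g * b * g⁻¹) = 7 := ((MulAut.conj g).orderOf_eq b).trans h7
  generalize g * b * g⁻¹ = d at c o7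
  let s : Finset (Fin 2058) := {110, 590, 1054, 1434, 1575, 1627, 1805, 1895}
  have hs : ∀ x : Fin 2058, x ∈ s ↔ evl m [4, 21, 22] • x = x := fun x => by
    have k : nall 2058 (fun q => fxw fA [4, 21, 22] q == lm [110, 590, 1054, 1434, 1575, 1627, 1805, 1895] q)
      = true := by decide +kernel
    rw [← ma.fxw_iff (by decide), beq_iff_eq.1 ((nall_iff _ _).1 k _ x.2), lm_iff]
    simp [s, Fin.ext_iff]
  have : Fact (Nat.Prime 7) := ⟨by norm_num⟩
  have hp : ∀ x : Fin 2058, toPerm d x ∈ s ↔ x ∈ s := fun x => by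
    rw [hs, hs, toPerm_apply, ← mul_smul, ← c.eq, mul_smul, smul_left_cancel_iff]
  obtain ⟨x, hx⟩ := Equiv.Perm.exists_fixed_point_of_prime (p := 7) (n := 1) (σ := (toPerm d).subtypePerm hp)
    (by rw [Fintype.card_coe]; decide) (by
      rw [Equiv.Perm.subtypePerm_pow]
      exact Equiv.ext fun x => Subtype.ext (by
        change (toPermHom X _ d ^ 7 ^ 1) x.1 = x.1
        rw [← map_pow, pow_one, ← o7, pow_orderOf_eq_one, map_one]; rfl))
  have := orderOf_dvd_natCard (stabilizer X x.1) (x := d) (congrArg Subtype.val hx)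
  rw [o7, card_stab] at this
  exact absurd this (by norm_num)

end Cfsg.Agent.HeR
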