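import Cfsg.Agent.HeR.M
import Cfsg.Agent.HeR.TR
import Cfsg.Agent.HeR.TL

/-! # The centralizer of the central involution -/

set_option autoImplicit false
set_option maxRecDepth 100000

namespace Cfsg.Agent.HeR

open Cfsg Cfsg.Agent.GT Cfsg.Agent.TT Cfsg.Agent.TC Cfsg.Agent.XL Cfsg.Agent.M24 Subgroup MulAction

section
variable {A B : Type*} [Group A] [Group B] {M : Subgroup (A × B)} {p q : A × B}

/-- the second projection is injective -/
def Gr' (M : Subgroup (A × B)) : Prop := ∀ p ∈ M, p.2 = 1 → p = 1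

theorem Gr'.ext (h : Gr' M) (a : p ∈ M) (b : q ∈ M) (e : p.2 = q.2) : p = q :=
  (inv_mul_eq_one.1 (h _ (mul_mem (inv_mem b) a) (by simp [e]))).symm

theorem Gr'.fst (h : Gr' M) (a : p ∈ M) (b : q ∈ M) (e : p.2 = q.2) : p.1 = q.1 := congrArg Prod.fst (h.ext a b e)

theorem gr_snd (h : Gr M) (a : p ∈ M) (b : q ∈ M) (e : p.1 = q.1) : p.2 = q.2 := congrArg Prod.snd (h.ext a b e)

theorem gr_cent (h : Gr M) (a : p ∈ N[M]) (e : p.1 = 1) (b : q ∈ M) : Commute p.2 q.2 :=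
  commute_iff_conj.2 (gr_snd h (conj_mem_of_mem_norm a b) b (by simp [e]))

theorem gr_cent' (h : Gr' M) (a : p ∈ N[M]) (e : p.2 = 1) (b : q ∈ M) : Commute p.1 q.1 :=
  commute_iff_conj.2 (h.fst (conj_mem_of_mem_norm a b) b (by simp [e]))

theorem odd_fix {D : Type*} [Group D] {p σ : D} {n : ℕ} (hn : Odd n) (ss : σ * σ = 1) (c : Commute p σ)
    (h : p ^ n = 1 ∨ p ^ n = σ) : ∃ ε, (ε = 1 ∨ ε = σ) ∧ (p * ε) ^ n = 1 := by
  rcases h with h | h
  · exact ⟨1, Or.inl rfl, by rwa [mul_one]⟩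
  · obtain ⟨k, rfl⟩ := hn
    exact ⟨σ, Or.inr rfl, by rw [c.mul_pow, h, pow_succ, pow_mul, sq, ss, one_pow, one_mul, ss]⟩

end

variable {H : Type*} [Group H] [Finite H] {R : Subgroup H} {r : ℕ → H} {da db g1 g2 : H}
  {K : Subgroup (X × H)} {v : ℕ → X × H}

/-- the graph of an isomorphism of the centralizers -/
structure KK (r : ℕ → H) (K : Subgroup (X × H)) (v : ℕ → X × H) : Prop where
  am : AM m v iv 29
  gr : Gr K
  gr' : Gr' K
  mem : ∀ i ∈ Dl, v i ∈ K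
  fst : ∀ p ∈ K, p.1 ∈ D0
  snd : ∀ d ∈ C1[r 3], ∃ p ∈ K, p.2 = d
  rl : ∀ i ∈ Rl, (v i).2 = r i

/-- first letters -/
noncomputable def v0 (r : ℕ → H) (i : ℕ) : X × H := (m i, if i ∈ Rl then r i else 1)

omit [Finite H] in
theorem v0_snd {i : ℕ} (hi : i ∈ Rl) : (v0 r i).2 = r i := if_pos hi

omit [Finite H] in
theorem v0_ev {w : List ℕ} (hw : ∀ i ∈ w, i ∈ Rl) : (evl (v0 r) w).2 = evl r w :=
  (evl_snd' w).trans (evl_congr fun i hi => v0_snd (hw i hi))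

omit [Finite H] in
theorem HH.am0 (h : HH R r da db g1 g2) : AM m (v0 r) iv 29 := by
  refine ⟨fun _ _ => rfl, fun i hi => ⟨(minv i hi).1, Prod.ext (minv i hi).2 ?_⟩⟩
  have : ∀ i < 29, (i ∈ Rl → iv i = i) ∧ (i ∉ Rl → iv i ∉ Rl) := by decide
  by_cases e : i ∈ Rl
  · rw [(this i hi).1 e, Prod.snd_mul, v0_snd e]; exact h.sq i e
  · simp [v0, e, (this i hi).2 e]

theorem HH.gr0 (h : HH R r da db g1 g2) : Gr (Mb (v0 r) Rl) ∧ Gr' (Mb (v0 r) Rl) ∧
    (Mb (v0 r) Rl).map (MonoidHom.snd X H) = R ∧ Nat.card (Mb (v0 r) Rl) ≤ 128 := by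
  obtain ⟨h1, h2, -, h4⟩ := h.am0.idx_le md (ls := Rl) (ls0 := []) (mems := []) (ex := relR) HeRTR.cert rfl
    (by simp) (fun l hl => by
      have : ∀ l ∈ relR, eq l [] = true ∧ (∀ i ∈ l, i ∈ Rl) ∧ ∀ i ∈ l, i < 29 := by decide +kernel
      exact Prod.ext ((h.am0.ev (this l hl).2.2).trans (md.eq (this l hl).1))
        ((v0_ev (this l hl).2.1).trans (h.rel l hl))) (by decide +kernel)
  have c : Nat.card (Mb (v0 r) Rl) ≤ 128 := by
    rw [← card_mul_relIndex h2, card_nil, one_mul]; exact h4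
  have e : (Mb (v0 r) Rl).map (MonoidHom.snd X H) = R := by
    rw [Mb.map, h.gen]; exact Mb.congr fun i hi => v0_snd hi
  exact ⟨inj_of_card (φ := MonoidHom.fst X H) (by rw [h.am0.map h1, pcR.2.2]; exact c),
    inj_of_card (φ := MonoidHom.snd X H) (by rw [e, h.cR]; exact c), e, c⟩

theorem HH.lift (h : HH R r da db g1 g2) {j : ℕ} {d : H} (hd : d ∈ C1[r 3]) {act : List (ℕ × List ℕ)}
    (ca : ∀ p ∈ act, d * r p.1 * d⁻¹ = evl r p.2 ∨ d * r p.1 * d⁻¹ = evl r p.2 * r 3)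
    (hc : HeR.cb [j] [3] = true ∧ ∀ q ∈ [0, 1, 2, 6, 8, 9], ∃ p ∈ act, p.1 = q ∧ lsub p.2 Rl = true ∧
      eq [q, j] (j :: p.2) = true) : ∃ ρ ∈ R, (m j, d * ρ) ∈ N[Mb (v0 r) Rl] := by
  have zz := h.lq.zz
  have rR : ∀ i ∈ Rl, r i ∈ R := fun i hi => h.gen.ge (Mb.of hi)
  let par : ℕ → ℕ := fun p => [6, 8, 9, 0, 0, 0, 0, 0, 1, 2].getD p 0
  have hp : ∀ p ∈ [0, 1, 2, 6, 8, 9], par p ∈ Rl ∧ p ∈ Rl ∧ ∀ q ∈ [0, 1, 2, 6, 8, 9],
      band (band (lsub [q, par p] Rl) (lsub (par p :: if p = q then [3, q] else [q]) Rl))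
      (eq [q, par p] (par p :: if p = q then [3, q] else [q])) = true := by decide +kernel
  obtain ⟨y, hy, e⟩ := adjust (σ := ((1, r 3) : X × H)) (x := (m j, d)) (v := v0 r)
    (u := fun p => (1, r (par p))) (P := fun _ y => y ∈ Mb (v0 r) Rl) (ls := [0, 1, 2, 6, 8, 9])
    (Prod.ext (mul_one _) zz) (Prod.ext (by simp) (mem_cent1.1 hd))
    (fun p a => Prod.ext rfl (h.lq.zc _ (rR _ (hp p a).1)).symm) (fun p a q b => by
      have := congrArg Prod.snd (h.am0.eq' md h.gr0.1 ((hp p a).2.2 q b))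
      have q1 := v0_snd (r := r) (hp q b).2.1
      have q2 := v0_snd (r := r) (hp p a).1
      have q3 := v0_snd (r := r) (i := 3) (by decide)
      split_ifs at this ⊢ <;> refine Prod.ext (by simp) ?_ <;>
        simpa [evl, q1, q2, q3, mul_inv_eq_iff_eq_mul] using this) (fun q b => by
      obtain ⟨p, a, rfl, c, e⟩ := hc.2 q b
      have e1 : m j * m p.1 * (m j)⁻¹ = (evl (v0 r) p.2).1 := by
        rw [h.am0.ev fun i hi => pcR.1 i (lsub_iff.1 c i hi), mul_inv_eq_iff_eq_mul]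
        simpa [evl] using md.eq e
      have q1 := v0_snd (r := r) (hp _ b).2.1
      refine (ca p a).imp (fun k => ?_) fun k => ?_ <;> refine (congrArg (· ∈ _) (Prod.ext ?_ ?_)).mpr (Mb.ev' c)
      · exact e1
      · simp [q1, k, v0_ev (lsub_iff.1 c)]
      · exact (mul_one _).trans e1
      · simp only [Prod.snd_mul, Prod.snd_inv, q1, k, v0_ev (lsub_iff.1 c)]; rw [mul_assoc, zz, mul_one])
  have : Mb (fun p => ((1, r (par p)) : X × H)) [0, 1, 2, 6, 8, 9] ≤ (⊥ : Subgroup X).prod R :=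
    Mb.le fun i hi => ⟨one_mem _, rR _ (hp i hi).1⟩
  obtain ⟨y1, y2⟩ := this hy
  have e1 : (m j, d * y.2) = (m j, d) * y := Prod.ext (by simp [mem_bot.1 y1]) rfl
  refine ⟨y.2, y2, Mb.norm fun i hi => ?_⟩
  by_cases i3 : i = 3
  · subst i3
    refine (congrArg (· ∈ _) (Prod.ext ?_ ?_)).mpr (Mb.of hi)
    · exact commute_iff_conj.1 (by simpa [ev1, v0] using cm_of hc.1)
    · simp only [Prod.snd_mul, Prod.snd_inv, v0_snd hi]
      exact commute_iff_conj.1 (Commute.mul_left (mem_cent1.1 hd) (h.lq.zc _ y2).symm)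
  · rw [e1]; exact e i ((by decide : ∀ i ∈ Rl, i ≠ 3 → i ∈ [0, 1, 2, 6, 8, 9]) i hi i3)

theorem HH.cen (h : HH R r da db g1 g2) {p : X × H} (hp : p ∈ N[Mb (v0 r) Rl]) (e : p.1 = 1) :
    p = 1 ∨ p = (1, r 3) := by
  have : p.2 ∈ C[R] := fun y hy => by
    obtain ⟨q, a, rfl⟩ := h.gr0.2.2.1.ge hy
    exact (gr_cent h.gr0.1 hp e a).symm
  rw [h.lq.cent_eq, mem_zp2 h.lq.zz] at this
  exact this.imp (Prod.ext e) (Prod.ext e)

theorem HH.asq (h : HH R r da db g1 g2) {ρ : H} (hρ : ρ ∈ R) (hn : (m 5, da * ρ) ∈ N[Mb (v0 r) Rl]) :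
    ((m 5, da * ρ) : X × H) * (m 5, da * ρ) = 1 := by
  obtain ⟨g0, g0', e0, -⟩ := h.gr0
  refine (h.cen (mul_mem hn hn) (minv 5 (by norm_num)).2).resolve_right fun e => ?_
  obtain ⟨δ, hδ, e1⟩ := e0.ge (inv_mem hρ)
  set a : X × H := (m 5, da * ρ)
  have x2 : (a * δ).2 = da := by simp [a, show δ.2 = ρ⁻¹ from e1]
  have xn : a * δ ∈ N[Mb (v0 r) Rl] := mul_mem hn (le_normalizer hδ)
  have hS := h.lq.toES.conj_ g1
  rw [h.s1] at hS
  have m2 : v0 r 2 ∈ Mb (v0 r) Rl := Mb.of (by decide)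
  have q2 : (v0 r 2).2 = r 2 := v0_snd (by decide)
  have cm : ∀ {i j k : ℕ}, i ∈ Rl → j ∈ Rl → eq [k] [j, i] = true → r i * r j ∈ cj[g1] R →
      Cm (a * δ).1 (m k) (m 2) := fun {i j k} hi hj c hs => by
    have b : v0 r i * v0 r j ∈ Mb (v0 r) Rl := mul_mem (Mb.of hi) (Mb.of hj)
    rw [show m k = (v0 r i * v0 r j).1 by simpa [evl, v0] using md.eq c]
    refine (hS.conj _ h.aS _ hs).imp (fun k => g0'.fst (conj_mem_of_mem_norm xn b) b ?_)
      fun k => g0'.fst (conj_mem_of_mem_norm xn b) (mul_mem b m2) ?_ <;>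
      simpa only [Prod.snd_mul, Prod.snd_inv, v0_snd hi, v0_snd hj, q2, ← x2] using k
  have xA := achar1 (a * δ).1 (mul_mem (DK 5 (by decide)) (leD (by decide +kernel) (h.am0.mem pcR.1 hδ)))
    (commute_iff_conj.2 (g0'.fst (conj_mem_of_mem_norm xn m2) m2 (by
      rw [Prod.snd_mul, Prod.snd_mul _ (v0 r 2), Prod.snd_inv, x2, q2]; exact commute_iff_conj.1 (hS.zc _ h.aS).symm)))
    (cm (by decide) (by decide) (by decide +kernel) h.e1) (cm (by decide) (by decide) (by decide +kernel) h.e2)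
  obtain ⟨w, -, -, hw, c⟩ := (pc (by decide +kernel)).all (P := fun w => bor (eq (w ++ w) []) (eq (w ++ w) [2]))
    (by decide +kernel) _ xA
  have k : (a * a)⁻¹ * (a * δ * (a * δ)) ∈ Mb (v0 r) Rl := by
    rw [show (a * a)⁻¹ * (a * δ * (a * δ)) = a⁻¹ * δ * a⁻¹⁻¹ * δ by group]
    exact mul_mem (conj_mem_of_mem_norm (inv_mem hn) hδ) hδ
  have k1 : ((a * a)⁻¹ * (a * δ * (a * δ))).1 = evl m (w ++ w) := by rw [e, evl_append, hw]; simp
  have k2 : ((a * a)⁻¹ * (a * δ * (a * δ))).2 = (r 3)⁻¹ * (da * da) := by rw [e, Prod.snd_mul, Prod.snd_mul, x2]; rfl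
  rcases Bool.or_eq_true _ _ ▸ bor_eq _ _ ▸ c with c | c
  · have := congrArg Prod.snd (g0 _ k (k1.trans (md.eq c)))
    rw [k2, Prod.snd_one, inv_mul_eq_one] at this
    rcases hS.sq _ h.aS with b | b
    exacts [h.lq.ne (this.trans b), h.n1 (this.trans b).symm]
  · have := gr_snd g0 k m2 (k1.trans ((md.eq c).trans (ev1 2)))
    rw [k2, q2, inv_mul_eq_iff_eq_mul] at this
    rcases hS.sq _ h.aS with b | b <;> rw [b] at this
    · exact h.n1 (mul_left_cancel (this.symm.trans h.lq.zz.symm))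
    · exact h.lq.ne (right_eq_mul.1 this)

theorem HH.exists_K (h : HH R r da db g1 g2) : ∃ K : Subgroup (X × H), Gr K ∧ Gr' K ∧
    K.map (MonoidHom.fst X H) = D0 ∧ K.map (MonoidHom.snd X H) = C1[r 3] ∧ ∀ i ∈ Rl, v0 r i ∈ K := by
  obtain ⟨g0, g0', e0, c0⟩ := h.gr0
  obtain ⟨ρ, hρ, na⟩ := h.lift (j := 5) h.a h.ca (by decide +kernel)
  obtain ⟨ρ', hρ', nb⟩ := h.lift (j := 25) h.b h.cb (by decide +kernel)
  have aa := h.asq hρ na
  let σ : X × H := (1, r 3)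
  have ss : σ * σ = 1 := Prod.ext (mul_one _) h.lq.zz
  let N := N[Mb (v0 r) Rl] ⊓ C1[σ]
  have sN : σ ∈ N := ⟨Mb.norm fun i hi => (congrArg (· ∈ _) (commute_iff_conj.1 (show Commute σ _ from Prod.ext (by simp [σ])
    (h.lq.zc (v0 r i).2 (h.gen.ge (by rw [v0_snd hi]; exact Mb.of hi)))))).mpr (Mb.of hi), mem_cent1.2 rfl⟩
  have eN : ∀ ε, ε = 1 ∨ ε = σ → ε ∈ N ∧ ε.1 = 1 ∧ ε * ε = 1 := by
    rintro _ (rfl | rfl)
    exacts [⟨one_mem _, rfl, mul_one _⟩, ⟨sN, rfl, ss⟩]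
  have cN : ∀ {j d ρ}, d ∈ C1[r 3] → ρ ∈ R → ((m j, d * ρ) : X × H) ∈ C1[σ] := fun a b =>
    mem_cent1.2 (Prod.ext (by simp [σ]) (Commute.mul_left (mem_cent1.1 a) (h.lq.zc _ b).symm))
  have aN : (m 5, da * ρ) ∈ N := ⟨na, cN h.a hρ⟩
  have bN : (m 25, db * ρ') ∈ N := ⟨nb, cN h.b hρ'⟩
  obtain ⟨ε, e1, b3⟩ := odd_fix (n := 3) (by decide) ss (mem_cent1.1 bN.2) (h.cen (pow_mem nb 3) (by
    simpa [evl_pww, evl] using md.eq (w := pww [25] 3) (w' := []) (by decide +kernel)))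
  have bN' := mul_mem bN (eN ε e1).1
  obtain ⟨η, e2, b7⟩ := odd_fix (n := 7) (by decide) ss (mem_cent1.1 (mul_mem bN' aN).2)
    (h.cen (pow_mem (mul_mem bN' aN).1 7) (by
      simpa [evl_pww, evl, (eN ε e1).2.1] using md.eq (w := pww [5, 25] 7) (w' := []) (by decide +kernel)))
  have aN' := mul_mem aN (eN η e2).1
  have aa' : (m 5, da * ρ) * η * ((m 5, da * ρ) * η) = 1 := by
    rcases e2 with rfl | rfl
    · rwa [mul_one]
    · rw [mul_assoc, ← mul_assoc σ, ← mem_cent1.1 aN.2, mul_assoc, ss, mul_one, aa]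
  rw [mul_assoc] at b7
  have a1 : ((m 5, da * ρ) * η).1 = m 5 := by simp [(eN η e2).2.1]
  have b1 : ((m 25, db * ρ') * ε).1 = m 25 := by simp [(eN ε e1).2.1]
  generalize (m 5, da * ρ) * η = a at *
  generalize (m 25, db * ρ') * ε = b at *
  let u : ℕ → X × H := fun i => if i = 5 then a else if i = 25 then b else if i = 26 then b⁻¹ else v0 r i
  have uR : ∀ i ∈ Rl, u i = v0 r i := fun i hi => by
    have : ∀ i ∈ Rl, i ≠ 5 ∧ i ≠ 25 ∧ i ≠ 26 := by decide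
    simp [u, this i hi]
  have am : AM m u iv 29 := ⟨fun i hi => by
      by_cases i5 : i = 5
      · simp [u, i5, a1]
      by_cases i25 : i = 25
      · simp [u, i25, b1]
      by_cases i26 : i = 26
      · simpa [u, i26, b1, iv] using (eq_inv_of_mul_eq_one_left (minv 25 (by norm_num)).2).symm
      simp [u, i5, i25, i26, v0],
    fun i hi => ⟨(minv i hi).1, by
      by_cases i5 : i = 5
      · simpa [u, i5, iv] using aa'
      by_cases i25 : i = 25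
      · simp [u, i25, iv]
      by_cases i26 : i = 26
      · simp [u, i26, iv]
      simpa [u, i5, i25, i26, iv] using (h.am0.inv i hi).2⟩⟩
  have uN : Mb u [5, 25, 26] ≤ N := Mb.le (by simp [u, aN', bN'])
  obtain ⟨c1, -, cc⟩ := eN _ (h.cen (uN (Mb.ev' (w := pww [5, 25, 5, 26] 4) (by decide +kernel))).1
    ((am.ev (by decide)).trans (md.eq (w' := []) (by decide +kernel))))
  have cz : ∀ x ∈ N, evl u (pww [5, 25, 5, 26] 4) * x * evl u (pww [5, 25, 5, 26] 4) = x := fun x hx => by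
    rcases h.cen c1.1 ((am.ev (by decide)).trans (md.eq (w' := []) (by decide +kernel))) with e | e <;> rw [e]
    · simp
    · rw [← mem_cent1.1 hx.2, mul_assoc, ss, mul_one]
  obtain ⟨-, h2, -, h4⟩ := am.idx_le md (ls := [5, 25, 26]) (ls0 := []) (mems := [])
    (ex := [pww [25] 3, pww [5, 25] 7, pww [5, 25, 5, 26] 4 ++ pww [5, 25, 5, 26] 4,
      pww [5, 25, 5, 26] 4 ++ [5] ++ pww [5, 25, 5, 26] 4 ++ [5],
      pww [5, 25, 5, 26] 4 ++ [25] ++ pww [5, 25, 5, 26] 4 ++ [26]]) HeRTL.cert rfl (by simp) (by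
      simp only [List.forall_mem_cons, evl_append, ← mul_assoc]
      refine ⟨by simpa [evl_pww, evl, u] using b3, by simpa [evl_pww, evl, u] using b7, cc, ?_, ?_, by simp⟩
      · rw [mul_assoc, mul_assoc, ← mul_assoc (evl u (pww _ _)), cz _ (uN (Mb.ev' (by decide +kernel)))]
        simpa [evl, u] using aa'
      · rw [mul_assoc, mul_assoc, ← mul_assoc (evl u (pww _ _)), cz _ (uN (Mb.ev' (by decide +kernel)))]
        simp [evl, u]) (by decide +kernel)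
  rw [← one_mul (relIndex _ _), ← card_nil (m := u), card_mul_relIndex h2] at h4
  have eR : Mb u Rl = Mb (v0 r) Rl := Mb.congr uR
  have KN : Mb u Kl ≤ Mb u [5, 25, 26] ⊔ Mb (v0 r) Rl := Mb.le fun i hi =>
    ((by decide : ∀ i ∈ Kl, i ∈ [5, 25, 26] ∨ i ∈ Rl) i hi).elim (fun a => mem_sup_left (Mb.of a))
      fun a => mem_sup_right (eR.le (Mb.of a))
  have cK : Nat.card (Mb u Kl) ≤ 21504 := (card_le_of_le KN).trans ((Nat.le_of_dvd (Nat.mul_pos Nat.card_pos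
    Nat.card_pos) (card_sup_dvd (Or.inl (uN.trans inf_le_left)))).trans (Nat.mul_le_mul h4 c0))
  have f1 := am.map (ls := Kl) (by decide)
  have gr : Gr (Mb u Kl) := inj_of_card (φ := MonoidHom.fst X H) (by rw [f1]; exact cK.trans cardD)
  have RK : Mb (v0 r) Rl ≤ Mb u Kl := eR.ge.trans (Mb.mono (by decide))
  have z3 : v0 r 3 ∈ Mb (v0 r) Rl := Mb.of (by decide)
  have gr' : Gr' (Mb u Kl) := fun p hp e => by
    have hn := (sup_le (uN.trans inf_le_left) le_normalizer) (KN hp)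
    rcases cenR p.1 (f1.le ⟨p, hp, rfl⟩) fun i hi => gr_cent' g0' hn e (q := v0 r i) (Mb.of hi) with k | k
    · exact gr p hp k
    · exact absurd ((gr_snd gr (RK z3) hp k.symm).trans e) (by rw [v0_snd (by decide)]; exact h.lq.ne)
  refine ⟨_, gr, gr', f1, eq_of_le_of_card_ge ?_ ?_, fun i hi => RK (Mb.of hi)⟩
  · rintro _ ⟨p, hp, rfl⟩
    have := congrArg Prod.snd (gr.comm hp (RK z3) (Mb.cent (g := m 3) (fun i hi => by
      have : ∀ i ∈ Kl, HeR.cb [3] [i] = true := by decide +kernel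
      simpa [ev1] using cm_of (this i hi)) (f1.le ⟨p, hp, rfl⟩)).symm)
    rw [Prod.snd_mul, Prod.snd_mul, v0_snd (by decide)] at this
    exact mem_cent1.2 this
  · rw [card_map_of (φ := MonoidHom.snd X H) gr', h.cD, ← card_map_of (φ := MonoidHom.fst X H) gr, f1]; exact cardD

theorem HH.exists_KK (h : HH R r da db g1 g2) : ∃ K v, KK r K v := by
  obtain ⟨K, gr, gr', f1, f2, hr⟩ := h.exists_K
  have : ∀ i, ∃ p : X × H, p.1 = m i ∧ (i ∈ Dl → p ∈ K) ∧ (i ∉ Dl → p.2 = 1) := fun i => by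
    by_cases e : i ∈ Dl
    · obtain ⟨p, a, b⟩ := f1.ge (DK i e)
      exact ⟨p, b, fun _ => a, fun k => absurd e k⟩
    · exact ⟨(m i, 1), rfl, fun k => absurd k e, fun _ => rfl⟩
  choose v h1 h2 h3 using this
  refine ⟨K, v, ⟨fun i _ => h1 i, fun i hi => ⟨(minv i hi).1, ?_⟩⟩, gr, gr', h2, fun p hp => f1.le ⟨p, hp, rfl⟩,
    fun d hd => f2.ge hd, fun i hi => (gr_snd gr (h2 i ((by decide : ∀ i ∈ Rl, i ∈ Dl) i hi)) (hr i hi)
      (h1 i)).trans (v0_snd hi)⟩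
  have e : (v (iv i) * v i).1 = 1 := by rw [Prod.fst_mul, h1, h1, (minv i hi).2]
  have : ∀ i < 29, (i ∈ Dl ↔ iv i ∈ Dl) := by decide
  by_cases k : i ∈ Dl
  · exact gr _ (mul_mem (h2 _ ((this i hi).1 k)) (h2 i k)) e
  · exact Prod.ext e (by rw [Prod.snd_mul, h3 i k, h3 _ (mt (this i hi).2 k), mul_one]; rfl)

end Cfsg.Agent.HeR
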