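import Cfsg.Agent.HeR.T1

/-! # The extra generators -/

set_option autoImplicit false
set_option maxRecDepth 100000

namespace Cfsg.Agent.HeR

open Cfsg Cfsg.Agent.GT Cfsg.Agent.TT Cfsg.Agent.TC Cfsg.Agent.XL Cfsg.Agent.M24 Subgroup MulAction

variable {H : Type*} [Group H] {R : Subgroup H} {r : ℕ → H} {K : Subgroup (X × H)} {v : ℕ → X × H}
  {l w w' : List ℕ} {p q : X × H}

theorem lt_of_D (h : lsub l Dl = true) : ∀ i ∈ l, i < 29 := fun i hi =>
  (by decide : ∀ i ∈ Dl, i < 29) i (lsub_iff.1 h i hi)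

theorem KK.le (k : KK r K v) (h : lsub l Dl = true) : Mb v l ≤ K := Mb.le fun i hi => k.mem i (lsub_iff.1 h i hi)

theorem KK.ev (k : KK r K v) (h : lsub w Dl = true) : evl v w ∈ K := evl_mem fun i hi => k.mem i (lsub_iff.1 h i hi)

theorem KK.memb (k : KK r K v) (h : lsub l Dl = true) (hp : p ∈ K) (e : p.1 ∈ Mb m l) : p ∈ Mb v l :=
  let ⟨_, a, b⟩ := k.am.lift (lt_of_D h) e
  k.gr.ext (k.le h a) hp b ▸ a

theorem KK.eqw (k : KK r K v) (h : lsub w Dl = true) (h' : lsub w' Dl = true) (e : eq w w' = true) :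
    evl v w = evl v w' := k.am.eq md k.gr (k.ev h) (k.ev h') e

theorem KK.cm (k : KK r K v) {i j : ℕ} (hi : i ∈ Dl) (hj : j ∈ Dl) (e : cb [i] [j] = true) :
    Commute (v i) (v j) := by
  have : ∀ i ∈ Dl, i < 29 := by decide
  refine k.gr.comm (k.mem i hi) (k.mem j hj) ?_
  rw [k.am.fst i (this i hi), k.am.fst j (this j hj), ← ev1, ← ev1]; exact cm_of e

theorem KK.z (k : KK r K v) : (v 3).2 = r 3 := k.rl 3 (by decide)

theorem KK.cz (k : KK r K v) (hp : p ∈ K) : Commute p (v 3) :=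
  k.gr.comm hp (k.mem 3 (by decide)) (by
    rw [k.am.fst 3 (by norm_num)]
    exact (Mb.cent (g := m 3) (fun i hi => by
      have : ∀ i ∈ Kl, cb [3] [i] = true := by decide +kernel
      simpa [ev1] using cm_of (this i hi)) (k.fst p hp)).symm)

theorem KK.cent (k : KK r K v) (hp : p ∈ K) : Commute p.2 (r 3) := k.z ▸ congrArg Prod.snd (k.cz hp).eq

theorem KK.sq (k : KK r K v) {i : ℕ} (hi : i < 25) : v i * v i = 1 := by
  have := (k.am.inv i (by omega)).2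
  rwa [iv, if_neg (by omega), if_neg (by omega)] at this

variable [Finite H]

theorem es_half {Q : Subgroup H} {z s : H} (hE : ES Q z) (hs : s ∈ Q) (h1 : s ≠ 1) (h2 : s ≠ z) :
    ∃ a ∈ Q, a * s * a⁻¹ = s * z := by
  by_contra c
  rcases hE.cent s hs fun y hy => (commute_iff_conj.2 ((hE.conj y hy s hs).resolve_right
    fun e => c ⟨y, hy, e⟩)).symm with h | h
  exacts [h1 h, h2 h]

theorem KK.inS (k : KK r K v) (lq : LQ R (r 3)) (cR : Nat.card R = 128) {g : H} {s e1 e2 : ℕ}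
    (hs : g * r 3 * g⁻¹ = (v s).2) (hR : (v s).2 ∈ R) (ne : (v s).2 ≠ r 3) (h1 : (v e1).2 ∈ cj[g] R)
    (h2 : (v e2).2 ∈ cj[g] R) (hD : s ∈ Dl ∧ e1 ∈ Dl ∧ e2 ∈ Dl) (hl : lsub l Dl = true)
    (cl : Nat.card (Mb m l) = 64)
    (ach : ∀ y ∈ D0, Commute y (m s) → Cm y (m e1) (m s) → Cm y (m e2) (m s) → y ∈ Mb m l) :
    r 3 ∈ cj[g] R ∧ ∀ p, p ∈ Mb v l ↔ p ∈ K ∧ p.2 ∈ cj[g] R := by
  have zS := lq.mem_conj' (hs ▸ hR) (hs ▸ ne) (by omega)
  have hS := lq.toES.conj_ g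
  rw [hs] at hS
  have lt : ∀ i ∈ Dl, i < 29 := by decide
  refine ⟨zS, fun p => (eq_of_le_of_card_ge (H := K ⊓ (cj[g] R).comap (MonoidHom.snd X H))
    (fun p (hp : p ∈ K ∧ p.2 ∈ cj[g] R) => k.memb hl hp.1 ?_) ?_) ▸ Iff.rfl⟩
  · have cm : ∀ e ∈ Dl, (v e).2 ∈ cj[g] R → Cm p.1 (m e) (m s) := fun e he h => by
      have b := mul_mem (mul_mem hp.1 (k.mem e he)) (inv_mem hp.1)
      rw [← k.am.fst e (lt e he), ← k.am.fst s (lt s hD.1)]
      exact (hS.conj _ hp.2 _ h).imp (k.gr'.fst b (k.mem e he))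
        (k.gr'.fst b (mul_mem (k.mem e he) (k.mem s hD.1)))
    refine ach _ (k.fst p hp.1) ?_ (cm _ hD.2.1 h1) (cm _ hD.2.2 h2)
    rw [← k.am.fst s (lt s hD.1)]
    exact k.gr'.fst (mul_mem hp.1 (k.mem s hD.1)) (mul_mem (k.mem s hD.1) hp.1) (hS.zc _ hp.2).symm
  · have a : cj[g] R ⊓ C1[r 3] ≤ (K ⊓ (cj[g] R).comap (MonoidHom.snd X H)).map (MonoidHom.snd X H) :=
      fun y hy => by
        obtain ⟨p, a, rfl⟩ := k.snd y hy.2
        exact ⟨p, ⟨a, hy.1⟩, rfl⟩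
    have b := card_le_of_le a
    have c := hS.card_le_two_mul zS
    rw [card_map_of fun p hp => k.gr' p (mem_inf.1 hp).1] at b
    rw [card_conj, cR] at c
    rw [← card_map_of (φ := MonoidHom.fst X H) (k.gr.mono (k.le hl)), k.am.map (lt_of_D hl), cl]
    omega

theorem KK.t2 (k : KK r K v) (lq : LQ R (r 3)) (cR : Nat.card R = 128) {g : H} {n s e1 f1 e2 f2 : ℕ}
    (hs : g * r 3 * g⁻¹ = (v s).2) (hR : (v s).2 ∈ R) (ne : (v s).2 ≠ r 3) (h1 : (v e1).2 ∈ cj[g] R)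
    (h2 : (v e2).2 ∈ cj[g] R) (ach : ∀ y ∈ D0, Commute y (m s) → Cm y (m e1) (m s) → Cm y (m e2) (m s) →
      y ∈ Mb m [f1, f2, e1, e2, s, 3]) {par : ℕ → ℕ}
    (hc : (pcChk fA 29 bs [f1, f2, e1, e2, s, 3] = true ∧ lsub [f1, f2, e1, e2, s, 3] Dl = true ∧
      lsub l Dl = true ∧ n < 25 ∧ eq [3, n] [n, s, 3] = true ∧ cb [n] [s] = true) ∧
      (∀ p ∈ [f1, f2, e1, e2], par p ∈ [f1, f2, e1, e2] ∧ cb [n] [p] = true ∧ ∀ q ∈ [f1, f2, e1, e2],
        eq [q, par p] (par p :: if p = q then [s, q] else [q]) = true) ∧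
      ∀ x ∈ l, x < 25 ∧ cb [x] [s] = true ∧ allS [f1, f2, e1, e2, s, 3] [] (fun a =>
        bor (!lall [f1, f2, e1, e2] fun f => eq (f :: a) (a ++ [n, x, n, x, f, x, n, x, n]))
        (bor (!eq (a ++ n :: a ++ [n]) []) (bor (eq a [x, n, x, n]) (eq a [s, x, n, x, n])))) = true) :
    ∃ a : H, a * a = 1 ∧ (m n, a) ∈ N[Mb v [f1, f2, e1, e2, s, 3]] ∧ Commute (m n) (m s) ∧
      ∀ x ∈ l, (m n, a) * v x * (m n, a)⁻¹ ∈ K ∨ (m n, a) * v x * (m n, a)⁻¹ * (m s, 1) ∈ K := by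
  obtain ⟨⟨c1, c2, c3, c4, c5, c6⟩, c7, c8⟩ := hc
  have D := lsub_iff.1 c2
  have lt := lt_of_D c2
  have sA : s ∈ [f1, f2, e1, e2, s, 3] := by simp
  have FA : ∀ p ∈ [f1, f2, e1, e2], p ∈ [f1, f2, e1, e2, s, 3] := by simp
  obtain ⟨zS, eA⟩ := k.inS lq cR hs hR ne h1 h2 ⟨D s sA, D _ (by simp), D _ (by simp)⟩ c2 (pc c1).2.2 ach
  have hS := lq.conj_ g
  rw [hs] at hS
  have vS : ∀ i ∈ [f1, f2, e1, e2, s, 3], (v i).2 ∈ cj[g] R := fun i hi => ((eA _).1 (Mb.of hi)).2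
  obtain ⟨a0, a1, a2⟩ := es_half hS.toES zS lq.ne ne.symm
  obtain ⟨y, hy, a3⟩ := adjust (σ := (v s).2) (x := a0) (v := fun i => (v i).2) (u := fun i => (v (par i)).2)
    (P := fun i y => y = (v i).2) (ls := [f1, f2, e1, e2]) hS.zz (hS.zc _ a1).symm
    (fun p a => (hS.zc _ (vS _ (FA _ (c7 p a).1))).symm) (fun p a q b => by
      have := congrArg Prod.snd (k.eqw (lsub_iff.2 (by simp [D _ (FA q b), D _ (FA _ (c7 p a).1)])) (lsub_iff.2 (by
        split_ifs <;> simp [D _ (FA q b), D _ (FA _ (c7 p a).1), D s sA])) ((c7 p a).2.2 q b))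
      split_ifs at this ⊢ <;> simpa [evl, mul_inv_eq_iff_eq_mul] using this)
    fun q b => (hS.conj _ a1 _ (vS q (FA q b))).imp id fun e => by rw [e, mul_assoc, hS.zz, mul_one]
  have : Mb (fun i => (v (par i)).2) [f1, f2, e1, e2] ≤ cj[g] R ⊓ C1[r 3] := Mb.le fun i hi =>
    ⟨vS _ (FA _ (c7 i hi).1), mem_cent1.2 (k.cent (k.mem _ (D _ (FA _ (c7 i hi).1))))⟩
  obtain ⟨a, b1, b2, b3, b4⟩ : ∃ a ∈ cj[g] R, a * a = 1 ∧ a * r 3 * a⁻¹ = r 3 * (v s).2 ∧
      ∀ q ∈ [f1, f2, e1, e2], Commute a (v q).2 := by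
    have b1 := mul_mem a1 (this hy).1
    have b3 : a0 * y * r 3 * (a0 * y)⁻¹ = r 3 * (v s).2 := by
      rw [← a2, mul_assoc a0, mem_cent1.1 (this hy).2]; group
    have b4 := fun q b => commute_iff_conj.2 (a3 q b)
    rcases hS.sq _ b1 with e | e
    · exact ⟨_, b1, e, b3, b4⟩
    · refine ⟨a0 * y * r 3, mul_mem b1 zS, ?_, by rw [← b3]; group, fun q b =>
        (b4 q b).mul_left (k.cent (k.mem _ (D _ (FA q b)))).symm⟩
      rw [show a0 * y * r 3 * (a0 * y * r 3) = a0 * y * r 3 * (a0 * y)⁻¹ * (a0 * y * (a0 * y)) * r 3 by group,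
        b3, e, mul_assoc (r 3), hS.zz, mul_one, lq.zz]
  have nn : m n * m n = 1 := k.am.fst n (by omega) ▸ congrArg Prod.fst (k.sq c4)
  have n2 : ((m n, a) : X × H) * (m n, a) = 1 := Prod.ext nn b2
  have ni : ((m n, a) : X × H)⁻¹ = (m n, a) := inv_eq_of_mul_eq_one_left n2
  have ns : Commute (m n) (m s) := by simpa [ev1] using cm_of c6
  have nA : (m n, a) ∈ N[Mb v [f1, f2, e1, e2, s, 3]] := Mb.norm fun i hi => by
    rcases (by simpa [or_assoc] using hi : i ∈ [f1, f2, e1, e2] ∨ i = s ∨ i = 3) with e | rfl | rfl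
    · exact (commute_iff_conj.1 (show Commute (m n, a) (v i) from Prod.ext (by
        simpa [ev1, k.am.fst i (lt i hi)] using (cm_of (c7 i e).2.1).eq) (b4 i e))).symm ▸ Mb.of hi
    · exact (commute_iff_conj.1 (show Commute (m n, a) (v i) from Prod.ext (by
        simpa [k.am.fst i (lt i hi)] using ns.eq) (hS.zc _ b1).symm)).symm ▸ Mb.of hi
    · refine (congrArg (· ∈ _) (Prod.ext ?_ ?_)).mpr (mul_mem (Mb.of hi) (Mb.of sA))
      · simpa [evl, k.am.fst _ (lt _ hi), k.am.fst s (lt s sA), mul_inv_eq_iff_eq_mul] using md.eq c5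
      · simpa [k.z] using b3
  refine ⟨a, b2, nA, ns, fun x hx => ?_⟩
  obtain ⟨d1, d2, d3⟩ := c8 x hx
  have xK := k.mem x (lsub_iff.1 c3 x hx)
  have xs : (v x).2 ∈ N[cj[g] R] := hS.nQ (mem_cent1.2 (congrArg Prod.snd
    (k.cm (lsub_iff.1 c3 x hx) (D s sA) d2).eq))
  have xA : v x ∈ N[Mb v [f1, f2, e1, e2, s, 3]] := mem_normalizer_of_conj fun y hy =>
    (eA _).2 ⟨mul_mem (mul_mem xK ((eA _).1 hy).1) (inv_mem xK), conj_mem_of_mem_norm xs ((eA _).1 hy).2⟩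
  have xi : (v x)⁻¹ = v x := inv_eq_of_mul_eq_one_left (k.sq d1)
  set c : X × H := (m n, a) * v x * (m n, a) * v x with hc
  have cA : c ∈ N[Mb v [f1, f2, e1, e2, s, 3]] := mul_mem (mul_mem (mul_mem nA xA) nA) xA
  have c2S : c.2 ∈ cj[g] R := by
    have := mul_mem b1 (conj_mem_of_mem_norm xs b1)
    rwa [← Prod.snd_inv, xi, ← mul_assoc, ← mul_assoc] at this
  have c2z : c.2 ∈ C1[r 3] := mem_cent1.2 (commute_iff_conj.2 (by
    have q1 := commute_iff_conj.1 (k.cent xK)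
    have q2 := commute_iff_conj.1 ((k.cent xK).mul_right (congrArg Prod.snd
      (k.cm (lsub_iff.1 c3 x hx) (D s sA) d2).eq))
    rw [show c.2 * r 3 * c.2⁻¹ = a * ((v x).2 * (a * ((v x).2 * r 3 * (v x).2⁻¹) * a⁻¹) * (v x).2⁻¹) * a⁻¹ by
      simp [hc, mul_assoc], q1, b3, q2, ← mul_assoc, mul_assoc _ (v s).2, ((hS.zc _ b1).inv_right).eq,
      ← mul_assoc, b3, mul_assoc, hS.zz, mul_one]))
  obtain ⟨b, bK, e⟩ := k.snd _ c2z
  have bA : b ∈ Mb v [f1, f2, e1, e2, s, 3] := (eA _).2 ⟨bK, e ▸ c2S⟩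
  obtain ⟨w, -, w1, w2, w3⟩ := (pc c1).all d3 _ (k.am.mem lt bA)
  have x1 := k.am.fst x (by omega)
  have xx : m x * m x = 1 := x1 ▸ congrArg Prod.fst (k.sq d1)
  have cw : c.1 = evl m [x, n, x, n] := by simp [hc, evl, x1]
  have u1 : lall [f1, f2, e1, e2] (fun f => eq (f :: w) (w ++ [n, x, n, x, f, x, n, x, n])) = true :=
    (lall_iff _ _).2 fun f hf => eq_of (by simpa [lt f (FA f hf)] using w1)
      (by simpa [or_imp, forall_and, lt f (FA f hf), show x < 29 by omega, show n < 29 by omega] using w1) (by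
        have := k.gr'.fst (k.le c2 (conj_mem_of_mem_norm (le_normalizer bA) (Mb.of (FA f hf))))
          (k.le c2 (conj_mem_of_mem_norm cA (Mb.of (FA f hf)))) (by simp only [Prod.snd_mul, Prod.snd_inv, e])
        rw [evl, evl_append, w2, ← mul_inv_eq_iff_eq_mul, ← k.am.fst f (lt f (FA f hf))]
        refine this.trans ?_
        simp [hc, evl, x1, mul_assoc, inv_eq_of_mul_eq_one_left xx, inv_eq_of_mul_eq_one_left nn,
          k.am.fst f (lt f (FA f hf))])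
  have u2 : eq (w ++ n :: w ++ [n]) [] = true :=
    eq_of (by simpa [or_imp, forall_and, show n < 29 by omega] using w1) (by simp) (by
      have := congrArg Prod.fst (k.gr' _ (mul_mem (k.le c2 (conj_mem_of_mem_norm nA bA)) bK) (by
        rw [ni, Prod.snd_mul, Prod.snd_mul, Prod.snd_mul, e]
        have : (m n, a) * c * (m n, a) * c = 1 := by
          simp only [hc, ← mul_assoc, n2, one_mul]
          rw [mul_assoc _ (m n, a) (m n, a), n2, mul_one, mul_assoc _ (v x) (v x), k.sq d1, mul_one,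
            mul_assoc _ (m n, a) (m n, a), n2, mul_one, k.sq d1]
        exact congrArg Prod.snd this))
      simpa [evl, evl_append, w2, ni, mul_assoc] using this)
  simp only [u1, u2, bor_eq, Bool.not_true, Bool.false_or, Bool.or_eq_true] at w3
  have ec : (m n, a) * v x * (m n, a)⁻¹ = c * v x := by rw [ni, hc, mul_assoc _ (v x) (v x), k.sq d1, mul_one]
  rw [ec]
  refine w3.imp (fun h => ?_) fun h => ?_
  · exact mul_mem (Prod.ext (w2.symm.trans ((md.eq h).trans cw.symm)) e ▸ bK) xK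
  · refine (congrArg (· ∈ _) (Prod.ext ?_ ?_)).mpr (mul_mem bK xK)
    · have : Commute (m x) (m s) := by simpa [ev1] using cm_of d2
      rw [Prod.fst_mul, Prod.fst_mul c, Prod.fst_mul b, ← w2, md.eq h, evl, cw, x1, mul_assoc, mul_assoc, this.eq]
    · simp [e]

end Cfsg.Agent.HeR
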