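import Cfsg.Agent.HeR.T2

/-! # Relations between the extra generators -/

set_option autoImplicit false
set_option maxRecDepth 100000

namespace Cfsg.Agent.HeR

open Cfsg Cfsg.Agent.GT Cfsg.Agent.TT Cfsg.Agent.TC Cfsg.Agent.XL Cfsg.Agent.M24 Subgroup MulAction

theorem tw_mul {D : Type*} [Group D] {K : Subgroup D} {a b σ : D} (ss : σ * σ = 1) (c : Commute b σ)
    (ha : a ∈ K ∨ a * σ ∈ K) (hb : b ∈ K ∨ b * σ ∈ K) : a * b ∈ K ∨ a * b * σ ∈ K := by
  rcases ha with ha | ha <;> rcases hb with hb | hb <;> have := mul_mem ha hb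
  · exact Or.inl this
  · exact Or.inr (by rwa [mul_assoc])
  · exact Or.inr (by rwa [mul_assoc, c.eq, ← mul_assoc])
  · exact Or.inl (by rwa [c.eq, mul_assoc, ← mul_assoc σ, ss, one_mul] at this)

theorem tw_sq {D : Type*} [Group D] {K : Subgroup D} {a σ : D} (ss : σ * σ = 1) (c : Commute a σ)
    (ha : a ∈ K ∨ a * σ ∈ K) : a * a ∈ K := by
  rcases ha with ha | ha <;> have := mul_mem ha ha
  · exact this
  · rwa [mul_assoc, ← mul_assoc σ, ← c.eq, mul_assoc, ss, mul_one] at this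

theorem msq {i : ℕ} (hi : i < 25) : m i * m i = 1 := by
  have := (minv i (by omega)).2
  rwa [iv, if_neg (by omega), if_neg (by omega)] at this

variable {H : Type*} [Group H] {R : Subgroup H} {r : ℕ → H} {K : Subgroup (X × H)} {v : ℕ → X × H}
  {l l' w w' : List ℕ} {p q a : X × H} {n n' : ℕ}

/-- conjugation by `a` keeps the letters in `K` -/
def Cj (K : Subgroup (X × H)) (v : ℕ → X × H) (a : X × H) (l : List ℕ) : Prop := ∀ i ∈ l, a * v i * a⁻¹ ∈ K

theorem Cj.mem (h : Cj K v a l) (hp : p ∈ Mb v l) : a * p * a⁻¹ ∈ K :=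
  (Mb.le (S := K.comap (MulAut.conj a).toMonoidHom) h) hp

theorem KK.cj (k : KK r K v) (h : Cj K v a l) (hl : lsub l Dl = true) (hp : p ∈ K) (e : p.1 ∈ Mb m l) :
    a * p * a⁻¹ ∈ K := h.mem (k.memb hl hp e)

theorem KK.cjw (k : KK r K v) (hn : n < 25) (e : p.1 = evl m w) :
    (v n * p * (v n)⁻¹).1 = evl m (n :: w ++ [n]) := by
  rw [inv_eq_of_mul_eq_one_left (k.sq hn)]
  simp [evl, evl_append, e, k.am.fst n (by omega), mul_assoc]

variable [Finite H]

theorem KK.nrm (k : KK r K v) (h : Cj K v (v n) l') (hc : n < 25 ∧ lsub l Dl = true ∧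
    ∀ i ∈ l, i ∈ l' ∧ ins l [n, i, n] = true) : v n ∈ N[Mb v l] := Mb.norm fun i hi =>
  k.memb hc.2.1 (h i (hc.2.2 i hi).1) (by
    rw [k.cjw hc.1 ((k.am.fst i (lt_of_D hc.2.1 i hi)).trans (ev1 i).symm)]; exact inS_mem md (hc.2.2 i hi).2)

theorem KK.t2' (k : KK r K v) {s t t' : ℕ} {A E : List ℕ} {b : H} (hA : (m n, b) ∈ N[Mb v A])
    (hs : Commute (m n) (m s))
    (h : ∀ x ∈ l, (m n, b) * v x * (m n, b)⁻¹ ∈ K ∨ (m n, b) * v x * (m n, b)⁻¹ * (m s, 1) ∈ K)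
    (hc : (lsub l Dl = true ∧ lsub A Dl = true ∧ lsub E Dl = true ∧ s < 25 ∧ ∀ x ∈ l, cb [x] [s] = true) ∧
      (t ∈ l ∧ t' ∈ l ∧ eq [t', t] [t, t', t, t'] = true) ∧
      ∀ i ∈ E, i ∈ A ∨ ∃ j ∈ l, ∃ j' ∈ l, eq [i] [j, j', j, j'] = true) :
    Cj K v (m n, b) E ∧ (m n, b) * (v t * v t') * (m n, b)⁻¹ ∈ K := by
  obtain ⟨⟨c1, c2, c3, c4, c5⟩, c6, c7⟩ := hc
  have ss : ((m s, 1) : X × H) * (m s, 1) = 1 :=
    Prod.ext (msq c4) (mul_one _)
  have c : ∀ x ∈ l, Commute ((m n, b) * v x * (m n, b)⁻¹) (m s, 1) := fun x hx => by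
    have a : Commute ((m n, b) : X × H) (m s, 1) := Prod.ext hs (by simp)
    refine (a.mul_left (Prod.ext ?_ (by simp))).mul_left a.inv_left
    simpa [ev1, k.am.fst x (lt_of_D c1 x hx)] using (cm_of (c5 x hx)).eq
  have sq : ∀ j ∈ l, ∀ j' ∈ l, (m n, b) * evl v [j, j', j, j'] * (m n, b)⁻¹ ∈ K := fun j hj j' hj' => by
    have := tw_sq ss ((c j' hj').mul_left (c j hj)) (tw_mul ss (c j hj) (h j' hj') (h j hj))
    simpa only [evl, mul_assoc, one_mul, inv_mul_cancel_left] using this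
  have D := lsub_iff.1 c1
  refine ⟨fun i hi => ?_, ?_⟩
  · rcases c7 i hi with e | ⟨j, hj, j', hj', e⟩
    · exact k.le c2 (conj_mem_of_mem_norm hA (Mb.of e))
    · have := k.eqw (lsub_iff.2 (by simp [lsub_iff.1 c3 i hi])) (lsub_iff.2 (by simp [D j hj, D j' hj'])) e
      rw [show v i = _ from (one_mul _).symm.trans this]; exact sq j hj j' hj'
  · have := k.eqw (lsub_iff.2 (by simp [D t c6.1, D t' c6.2.1])) (lsub_iff.2 (by simp [D t c6.1, D t' c6.2.1])) c6.2.2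
    rw [show v t * v t' = _ from (by simp [evl] : _ = evl v [t', t]).trans this]; exact sq t c6.1 t' c6.2.1

theorem KK.exj (k : KK r K v) (h : v n ∈ N[Mb v Yl]) (h' : v n' ∈ N[Mb v Yl])
    (hc : n < 29 ∧ n' < 29 ∧ ∀ i ∈ Yl, cb [n', n, n', n] [i] = true) :
    ∃ j ∈ K, j.2 = (evl v [n', n, n', n]).2 ∧ j.1 ∈ Mb m Jl := by
  have a : evl v [n', n, n', n] ∈ N[Mb v Yl] := evl_mem (by simp [h, h'])
  have YD : lsub Yl Dl = true := by decide +kernel
  have b : ∀ i ∈ Yl, Commute (evl v [n', n, n', n]).2 (v i).2 := fun i hi => commute_iff_conj.2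
    (gr_snd k.gr (k.le YD (conj_mem_of_mem_norm a (Mb.of hi))) (k.le YD (Mb.of hi)) (commute_iff_conj.1 (by
      rw [k.am.ev (by simp [hc.1, hc.2.1]), k.am.fst i (lt_of_D YD i hi), ← ev1]; exact cm_of (hc.2.2 i hi))))
  obtain ⟨j, c, e⟩ := k.snd _ (mem_cent1.2 (k.z ▸ b 3 (by decide)))
  refine ⟨j, c, e, cenY _ (k.fst j c) fun i hi => ?_⟩
  rw [← k.am.fst i (lt_of_D YD i hi)]
  exact k.gr'.fst (mul_mem c (k.le YD (Mb.of hi))) (mul_mem (k.le YD (Mb.of hi)) c) (by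
    rw [Prod.snd_mul, Prod.snd_mul, e]; exact b i hi)

theorem KK.notw (k : KK r K v) {x t s : ℕ} {E E' : List ℕ} (h : Cj K v (v n) E) (h' : Cj K v (v n') E')
    (hc : (n < 25 ∧ lsub Yl Dl = true ∧ ∀ i ∈ Yl, i ∈ E ∧ ins Yl [n, i, n] = true) ∧
      (n' < 25 ∧ lsub Yl Dl = true ∧ ∀ i ∈ Yl, i ∈ E' ∧ ins Yl [n', i, n'] = true) ∧
      (n < 29 ∧ n' < 29 ∧ ∀ i ∈ Yl, cb [n', n, n', n] [i] = true) ∧
      (lsub E Dl = true ∧ lsub E' Dl = true ∧ x ∈ E' ∧ t ∈ Dl ∧ t < 25 ∧ s < 29 ∧ (∀ i ∈ l, i ∈ E) ∧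
        ∀ i ∈ l', i ∈ E') ∧ ins l [t, n', x, n'] = true ∧ ins l' [s, n, n', x, n', n] = true ∧
      ins l [n', s, n, n', x, n', n, n'] = true ∧
      allS Jl [] (fun j => !eq (x :: j) (j ++ [n, n', s, n, n', x, n', n, n', n])) = true) :
    v n * v t * (v n)⁻¹ * (m s, 1) ∉ K := fun ht => by
  obtain ⟨c1, c2, c3, ⟨d1, d2, d3, d4, d5, d6, d7, d8⟩, e1, e2, e3, e4⟩ := hc
  obtain ⟨j, jK, j2, j1⟩ := k.exj (k.nrm h c1) (k.nrm h' c2) c3
  have x29 := lt_of_D d2 x d3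
  have p1 := h' x d3
  have q1 := k.cjw c2.1 ((k.am.fst x x29).trans (ev1 x).symm)
  have p2 := mul_mem (k.cj h d1 (mul_mem p1 (k.mem t d4)) (by
    rw [Prod.fst_mul, q1, k.am.fst t (by omega)]; exact Mb.mono d7 (inS_mem md e1))) ht
  rw [show ∀ a b c d : X × H, a * (b * c) * a⁻¹ * (a * c * a⁻¹ * d) = a * (b * (c * c)) * a⁻¹ * d from
    fun _ _ _ _ => by group, k.sq d5, mul_one] at p2
  have q2 : (v n * (v n' * v x * (v n')⁻¹) * (v n)⁻¹ * (m s, 1)).1 = evl m [s, n, n', x, n', n] := by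
    rw [Prod.fst_mul, k.cjw c1.1 q1]; rfl
  have p3 := k.cj h' d2 p2 (by rw [q2]; exact Mb.mono d8 (inS_mem md e2))
  have q3 := k.cjw c2.1 q2
  have p4 := k.cj h d1 p3 (by rw [q3]; exact Mb.mono d7 (inS_mem md e3))
  have q4 := k.cjw c1.1 q3
  have xK := k.mem x (lsub_iff.1 d2 x d3)
  have := k.gr'.fst (mul_mem (mul_mem jK xK) (inv_mem jK)) p4 (by simp [j2, evl, mul_assoc])
  obtain ⟨w, -, w1, w2, w3⟩ := pcJ.all e4 _ j1
  rw [q4, Prod.fst_mul, Prod.fst_mul, Prod.fst_inv, mul_inv_eq_iff_eq_mul, ← w2, k.am.fst x x29] at this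
  rw [eq_of (by simpa [x29] using w1) (by simpa [or_imp, forall_and, x29, c3.1, c3.2.1, d6] using w1)
    (by rw [evl_append]; exact this)] at w3
  exact absurd w3 (by decide)

omit [Finite H] in
theorem KK.upd (k : KK r K v) {u : ℕ → X × H} (h : ∀ i ∈ Dl, u i = v i)
    (h' : ∀ i < 25, i ∉ Dl → (u i).1 = m i ∧ u i * u i = 1) : KK r K u := by
  have e : ∀ i < 29, (i ∈ Dl ∧ iv i ∈ Dl) ∨ (i < 25 ∧ i ∉ Dl ∧ iv i = i) := by decide
  refine ⟨⟨fun i hi => ?_, fun i hi => ⟨(minv i hi).1, ?_⟩⟩, k.gr, k.gr', fun i hi => h i hi ▸ k.mem i hi, k.fst,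
    k.snd, fun i hi => by rw [h i ((by decide : ∀ i ∈ Rl, i ∈ Dl) i hi), k.rl i hi]⟩ <;>
    rcases e i hi with ⟨a, b⟩ | ⟨a, b, c⟩
  · rw [h i a, k.am.fst i hi]
  · exact (h' i a b).1
  · rw [h i a, h _ b, (k.am.inv i hi).2]
  · rw [c, (h' i a b).2]

/-- letters -/
def C1l : List ℕ := [0, 1, 2, 3, 4, 5, 6, 7, 8, 10]
/-- letters -/
def C2l : List ℕ := [1, 2, 3, 4, 5, 6, 7, 8, 9, 11]

/-- letters with new values -/
noncomputable def vn (v : ℕ → X × H) (a b : H) (i : ℕ) : X × H :=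
  if i = 13 then (m 13, a) else if i = 14 then (m 14, b) else v i

omit [Finite H] in
theorem vn_D {a b : H} {i : ℕ} (hi : i ∈ Dl) : vn v a b i = v i := by
  have : ∀ i ∈ Dl, i ≠ 13 ∧ i ≠ 14 := by decide
  simp [vn, this i hi]

omit [Finite H] in
theorem vn13 {a b : H} : vn v a b 13 = (m 13, a) := if_pos rfl

omit [Finite H] in
theorem vn14 {a b : H} : vn v a b 14 = (m 14, b) := (if_neg (by decide)).trans (if_pos rfl)

omit [Finite H] in
theorem KK.vn (k : KK r K v) {a b : H} (ha : a * a = 1) (hb : b * b = 1) : KK r K (vn v a b) :=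
  k.upd (fun _ => vn_D) fun i hi _ => by
    unfold HeR.vn
    split_ifs with h1 h2
    · exact ⟨h1 ▸ rfl, Prod.ext (minv 13 (by norm_num)).2 ha⟩
    · exact ⟨h2 ▸ rfl, Prod.ext (minv 14 (by norm_num)).2 hb⟩
    · exact ⟨k.am.fst i (by omega), k.sq hi⟩

omit [Finite H] in
theorem Cj.vn {c d : H} (h : Cj K v a l) (hl : lsub l Dl = true) : Cj K (vn v c d) a l := fun i hi => by
  rw [vn_D (lsub_iff.1 hl i hi)]; exact h i hi

theorem HH.exists_n {da db g1 g2 : H} (h : HH R r da db g1 g2) :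
    ∃ K v, KK r K v ∧ Cj K v (v 13) C1l ∧ Cj K v (v 14) C2l := by
  obtain ⟨K, v, k⟩ := h.exists_KK
  have rR : ∀ i ∈ Rl, r i ∈ R := fun i hi => h.gen.ge (Mb.of hi)
  have e : ∀ {i j l : ℕ}, i ∈ Rl → j ∈ Rl → l ∈ Dl → eq [l] [j, i] = true → (v l).2 = r i * r j :=
    fun {i j l} hi hj hl e => by
      have D : ∀ i ∈ Rl, i ∈ Dl := by decide
      have := congrArg Prod.snd (k.eqw (lsub_iff.2 (by simp [hl])) (lsub_iff.2 (by simp [D i hi, D j hj])) e)
      simpa [evl, k.rl i hi, k.rl j hj] using this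
  have r2 := k.rl 2 (by decide)
  have r6 := k.rl 6 (by decide)
  have e1 := e (i := 0) (j := 8) (l := 15) (by decide) (by decide) (by decide) (by decide +kernel)
  have e2 := e (i := 1) (j := 6) (l := 16) (by decide) (by decide) (by decide) (by decide +kernel)
  have e3 := e (i := 2) (j := 8) (l := 17) (by decide) (by decide) (by decide) (by decide +kernel)
  have e4 := e (i := 1) (j := 9) (l := 18) (by decide) (by decide) (by decide) (by decide +kernel)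
  obtain ⟨a, a1, a2, a3, a4⟩ := k.t2 (l := C1l) (n := 13) h.lq h.cR (h.s1.trans r2.symm)
    (by rw [r2]; exact rR 2 (by decide)) (by rw [r2]; exact h.n1) (by rw [e1]; exact h.e1) (by rw [e2]; exact h.e2)
    achar1 (par := fun p => if p = 5 then 15 else if p = 15 then 5 else if p = 7 then 16 else 7) (by decide +kernel)
  obtain ⟨b, b1, b2, b3, b4⟩ := k.t2 (l := C2l) (n := 14) h.lq h.cR (h.s2.trans r6.symm)
    (by rw [r6]; exact rR 6 (by decide)) (by rw [r6]; exact h.n2) (by rw [e3]; exact h.f1) (by rw [e4]; exact h.f2)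
    achar2 (par := fun p => if p = 4 then 17 else if p = 17 then 4 else if p = 5 then 18 else 5) (by decide +kernel)
  obtain ⟨a5, a6⟩ := k.t2' (E := [0, 1, 2, 3, 5, 6, 7, 8]) (t := 4) (t' := 10) a2 a3 a4 (by decide +kernel)
  obtain ⟨b5, b6⟩ := k.t2' (E := [1, 2, 3, 4, 5, 6, 8, 9]) (t := 7) (t' := 11) b2 b3 b4 (by decide +kernel)
  have k' := k.vn a1 b1
  have a7 : Cj K (vn v a b) (vn v a b 13) [0, 1, 2, 3, 5, 6, 7, 8] := by rw [vn13]; exact a5.vn (by decide +kernel)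
  have b7 : Cj K (vn v a b) (vn v a b 14) [1, 2, 3, 4, 5, 6, 8, 9] := by rw [vn14]; exact b5.vn (by decide +kernel)
  have a8 := k'.notw (x := 1) (t := 4) (s := 2) (l := [1, 2, 3, 5, 6]) (l' := W2) a7 b7 (by decide +kernel)
  have b8 := k'.notw (x := 8) (t := 7) (s := 6) (l := [8, 2, 3, 5, 6]) (l' := W3) b7 a7 (by decide +kernel)
  rw [vn13, vn_D (by decide)] at a8
  rw [vn14, vn_D (by decide)] at b8
  replace a8 := (a4 4 (by decide)).resolve_right a8
  replace b8 := (b4 7 (by decide)).resolve_right b8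
  have a9 := mul_mem (inv_mem a8) a6
  have b9 := mul_mem (inv_mem b8) b6
  refine ⟨K, _, k', Cj.vn (fun i hi => ?_) (by decide +kernel), Cj.vn (fun i hi => ?_) (by decide +kernel)⟩
  · rw [vn13]
    rcases (by decide : ∀ i ∈ C1l, i ∈ [0, 1, 2, 3, 5, 6, 7, 8] ∨ i = 4 ∨ i = 10) i hi with c | rfl | rfl
    exacts [a5 i c, a8, by simpa only [mul_assoc, mul_inv_rev, inv_inv, inv_mul_cancel_left] using a9]
  · rw [vn14]
    rcases (by decide : ∀ i ∈ C2l, i ∈ [1, 2, 3, 4, 5, 6, 8, 9] ∨ i = 7 ∨ i = 11) i hi with c | rfl | rfl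
    exacts [b5 i c, b8, by simpa only [mul_assoc, mul_inv_rev, inv_inv, inv_mul_cancel_left] using b9]

theorem KK.delta (k : KK r K v) (h : Cj K v (v 13) C1l) (h' : Cj K v (v 14) C2l) :
    ∃ j ∈ K, j.2 = (evl v [14, 13, 14, 13]).2 ∧
      (j.1 = evl m [14, 13, 14, 13] ∨ j.1 = evl m [5, 14, 13, 14, 13]) := by
  obtain ⟨j, jK, j2, j1⟩ := k.exj (k.nrm h (by decide +kernel)) (k.nrm h' (by decide +kernel)) (by decide +kernel)
  have JD : lsub Jl Dl = true := by decide +kernel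
  have a : v 13 ∈ N[Mb v Jl] := k.nrm h (by decide +kernel)
  have b : v 14 ∈ N[Mb v Jl] := k.nrm h' (by decide +kernel)
  have c : evl v [14, 13, 14, 13] ∈ N[Mb v Jl] := evl_mem (by simp [a, b])
  have jJ := k.memb JD jK j1
  obtain ⟨w, -, w1, w2, w3⟩ := pcJ.all (P := fun j => bor (!lall Jl fun i =>
    eq (i :: j) (j ++ [13, 14, 13, 14, i, 14, 13, 14, 13])) (bor (!eq (j ++ 13 :: j ++ [13]) [])
    (bor (!eq (j ++ 14 :: j ++ [14]) []) (bor (eq j [14, 13, 14, 13]) (eq j [5, 14, 13, 14, 13])))))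
    (by decide +kernel) _ j1
  have s1 := k.sq (i := 13) (by norm_num)
  have s2 := k.sq (i := 14) (by norm_num)
  have i1 := inv_eq_of_mul_eq_one_left s1
  have i2 := inv_eq_of_mul_eq_one_left s2
  have f1 := k.am.fst 13 (by norm_num)
  have f2 := k.am.fst 14 (by norm_num)
  have u1 : lall Jl (fun i => eq (i :: w) (w ++ [13, 14, 13, 14, i, 14, 13, 14, 13])) = true :=
    (lall_iff _ _).2 fun f hf => eq_of (by simpa [pcJ.1 f hf] using w1)
      (by simpa [or_imp, forall_and, pcJ.1 f hf] using w1) (by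
        have := k.gr'.fst (k.le JD (conj_mem_of_mem_norm (le_normalizer jJ) (Mb.of hf)))
          (k.le JD (conj_mem_of_mem_norm c (Mb.of hf))) (by simp only [Prod.snd_mul, Prod.snd_inv, j2])
        rw [evl, evl_append, w2, ← mul_inv_eq_iff_eq_mul, ← k.am.fst f (pcJ.1 f hf)]
        refine this.trans ?_
        simp only [evl, one_mul, mul_inv_rev, i1, i2]
        simp [f1, f2, mul_assoc, k.am.fst f (pcJ.1 f hf)])
  have u2 : ∀ n < 25, v n ∈ N[Mb v Jl] → v n * evl v [14, 13, 14, 13] * v n * evl v [14, 13, 14, 13] = 1 →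
      eq (w ++ n :: w ++ [n]) [] = true := fun n hn a e =>
    eq_of (by simpa [or_imp, forall_and, show n < 29 by omega] using w1) (by simp) (by
      have := congrArg Prod.fst (k.gr' _ (mul_mem (k.le JD (conj_mem_of_mem_norm a jJ)) jK) (by
        rw [inv_eq_of_mul_eq_one_left (k.sq hn), Prod.snd_mul, Prod.snd_mul, Prod.snd_mul, j2]
        exact congrArg Prod.snd e))
      simpa [evl, evl_append, w2, inv_eq_of_mul_eq_one_left (k.sq hn), mul_assoc, k.am.fst n (by omega)] using this)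
  have t1 : ∀ x, v 13 * (v 13 * x) = x := fun x => by rw [← mul_assoc, s1, one_mul]
  have t2 : ∀ x, v 14 * (v 14 * x) = x := fun x => by rw [← mul_assoc, s2, one_mul]
  simp only [u1, u2 13 (by norm_num) a (by simp [evl, mul_assoc, t1, t2, s2]),
    u2 14 (by norm_num) b (by simp [evl, mul_assoc, t1, t2, s2]), bor_eq, Bool.not_true, Bool.false_or,
    Bool.or_eq_true] at w3
  exact ⟨j, jK, j2, w3.imp (fun e => w2.symm.trans (md.eq e)) fun e => w2.symm.trans (md.eq e)⟩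

theorem HH.exists_n' {da db g1 g2 : H} (h : HH R r da db g1 g2) :
    ∃ K v, KK r K v ∧ Cj K v (v 13) C1l ∧ Cj K v (v 14) C2l ∧ evl v [14, 13, 14, 13] ∈ K := by
  obtain ⟨K, v, k, a, b⟩ := h.exists_n
  obtain ⟨j, jK, j2, j1 | j1⟩ := k.delta a b
  · exact ⟨K, v, k, a, b, Prod.ext (j1.trans (k.am.ev (by decide)).symm) j2 ▸ jK⟩
  have f1 : (m 13, (v 13).2) = v 13 := Prod.ext (k.am.fst 13 (by norm_num)).symm rfl
  have f2 : (m 14, (v 14).2 * (v 6).2) = v 14 * (1, (v 6).2) :=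
    Prod.ext ((k.am.fst 14 (by norm_num)).symm.trans (mul_one _).symm) rfl
  have c6 : Commute (v 14).2 (v 6).2 := commute_iff_conj.2 (gr_snd k.gr (b 6 (by decide)) (k.mem 6 (by decide))
    ((k.cjw (w := [6]) (by norm_num) ((k.am.fst 6 (by norm_num)).trans (ev1 6).symm)).trans
      ((md.eq (w' := [6]) (by decide +kernel)).trans ((ev1 6).trans (k.am.fst 6 (by norm_num)).symm))))
  have s : ∀ i < 25, (v i).2 * (v i).2 = 1 := fun i hi => congrArg Prod.snd (k.sq hi)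
  refine ⟨K, vn v (v 13).2 ((v 14).2 * (v 6).2), k.vn (s 13 (by norm_num)) (by
    rw [mul_assoc, ← mul_assoc (v 6).2, ← c6.eq, mul_assoc, s 6 (by norm_num), mul_one, s 14 (by norm_num)]),
    Cj.vn (f1 ▸ a :) (by decide +kernel), Cj.vn (fun i hi => ?_) (by decide +kernel), ?_⟩
  · have : Commute ((1, (v 6).2) : X × H) (v i) := Prod.ext (by simp) (congrArg Prod.snd (k.cm (by decide)
      ((by decide : ∀ i ∈ C2l, i ∈ Dl) i hi) ((by decide +kernel : ∀ i ∈ C2l, HeR.cb [6] [i] = true) i hi)).eq :)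
    change (m 14, _) * _ * (m 14, _)⁻¹ ∈ K
    rw [f2, mul_assoc (v 14), this.eq, mul_inv_rev, ← mul_assoc, ← mul_assoc, mul_inv_cancel_right]
    exact b i hi
  · have q1 := k.cjw (n := 13) (w := [6]) (by norm_num) ((k.am.fst 6 (by norm_num)).trans (ev1 6).symm)
    have p2 := k.cj b (by decide +kernel) (a 6 (by decide)) (by
      rw [q1]; exact Mb.mono (by decide) (inS_mem md (l := Yl) (by decide +kernel)))
    have q2 := gr_snd k.gr (mul_mem p2 (k.mem 6 (by decide))) (k.mem 5 (by decide)) (by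
      rw [Prod.fst_mul, k.cjw (by norm_num) q1, k.am.fst 6 (by norm_num), k.am.fst 5 (by norm_num), ← ev1 5]
      exact md.eq (w := [6, 14, 13, 6, 13, 14]) (by decide +kernel))
    refine (congrArg (· ∈ _) (Prod.ext ?_ ?_)).mpr (mul_mem jK (k.mem 5 (by decide)))
    · rw [Prod.fst_mul, j1, k.am.fst 5 (by norm_num)]
      simp [evl, vn, mul_assoc, msq]
    · rw [Prod.snd_mul, j2, ← q2, inv_eq_of_mul_eq_one_left (k.sq (i := 13) (by norm_num)),
        inv_eq_of_mul_eq_one_left (k.sq (i := 14) (by norm_num))]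
      have t1 : ∀ x, (v 13).2 * ((v 13).2 * x) = x := fun x => by rw [← mul_assoc, s 13 (by norm_num), one_mul]
      have t2 : ∀ x, (v 14).2 * ((v 14).2 * x) = x := fun x => by rw [← mul_assoc, s 14 (by norm_num), one_mul]
      simp [evl, vn, mul_assoc, t1, t2]

end Cfsg.Agent.HeR
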