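import Cfsg.Agent.HeR.T3
import Cfsg.Agent.HeR.TG

/-! # The homomorphism from the model -/

set_option autoImplicit false
set_option maxRecDepth 100000

namespace Cfsg.Agent.HeR

open Cfsg Cfsg.Agent.GT Cfsg.Agent.TT Cfsg.Agent.TC Cfsg.Agent.XL Cfsg.Agent.M24 Subgroup MulAction

theorem norm_sup_zp {D : Type*} [Group D] [Finite D] {W : Subgroup D} {g o : D} (a : g ∈ N[W])
    (b : g * o * g⁻¹ ∈ W ⊔ zpowers o) : g ∈ N[W ⊔ zpowers o] := mem_normalizer_of_conj fun x hx => by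
  have : W ⊔ zpowers o ≤ (W ⊔ zpowers o).comap (MulAut.conj g).toMonoidHom :=
    sup_le (fun _ c => mem_sup_left (conj_mem_of_mem_norm a c)) (zpowers_le.2 b)
  exact this hx

variable {H : Type*} [Group H] [Finite H] {R : Subgroup H} {r : ℕ → H} {K : Subgroup (X × H)} {v : ℕ → X × H}
  {l l' W : List ℕ} {n n' y : ℕ}

theorem KK.grN (k : KK r K v) (h : Cj K v (v n) l) (h' : Cj K v (v n') l') (hK : v n' * v n * v n' * v n ∈ K)
    (cw : ∀ g ∈ D0, (∀ i ∈ W, Commute g (m i)) → g ∈ Mb m W ∧ (Commute g (evl m [n, y]) → g = 1))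
    (hc : (n < 25 ∧ lsub W Dl = true ∧ ∀ i ∈ W, i ∈ l ∧ ins W [n, i, n] = true) ∧
      (n' < 25 ∧ lsub W Dl = true ∧ ∀ i ∈ W, i ∈ l' ∧ ins W [n', i, n'] = true) ∧
      (3 ∈ W ∧ y ∈ l' ∧ ∀ i ∈ W, ∀ j ∈ W, cb [i] [j] = true) ∧
      (∀ x ∈ y :: l, x < 25 ∧ x ∈ Dl ∧ ∀ i ∈ W, ins W [x, i, x] = true) ∧
      ∀ x ∈ n' :: l, ins W [y, n, x, n, y, x] = true) : Gr (Mb v (n :: n' :: y :: l)) := by
  obtain ⟨c1, c2, ⟨c3, c4, c5⟩, c6, c7⟩ := hc
  have WD := c1.2.1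
  have WK := k.le WD
  have gW := k.gr.mono WK
  have lt := lt_of_D WD
  have xW : ∀ x ∈ y :: l, v x ∈ N[Mb v W] := fun x hx => k.nrm (l' := W) (fun i hi => mul_mem (mul_mem
    (k.mem x (c6 x hx).2.1) (WK (Mb.of hi))) (inv_mem (k.mem x (c6 x hx).2.1)))
    ⟨(c6 x hx).1, WD, fun i hi => ⟨hi, (c6 x hx).2.2 i hi⟩⟩
  have nW := k.nrm h c1
  obtain ⟨y1, y2, -⟩ := c6 y List.mem_cons_self
  have yK := k.mem y y2
  have oW : v y * v n ∈ N[Mb v W] := mul_mem (xW y List.mem_cons_self) nW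
  have o1 : (v y * v n).1 = evl m [n, y] := by simp [evl, k.am.fst y (by omega), k.am.fst n (by omega)]
  have yi := inv_eq_of_mul_eq_one_left (k.sq y1)
  have ni := inv_eq_of_mul_eq_one_left (k.sq c1.1)
  have key : ∀ p ∈ N[Mb v W], p.1 = 1 → Commute p.2 (v y * v n).2 → p = 1 := fun p hp e c => by
    obtain ⟨j, jK, j2⟩ := k.snd p.2 (mem_cent1.2 (by rw [← k.z]; exact gr_cent gW hp e (Mb.of c3)))
    obtain ⟨a, b⟩ := cw _ (k.fst j jK) fun i hi => by
      rw [← k.am.fst i (lt i hi)]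
      exact k.gr'.fst (mul_mem jK (WK (Mb.of hi))) (mul_mem (WK (Mb.of hi)) jK) (by
        rw [Prod.snd_mul, Prod.snd_mul, j2]; exact gr_cent gW hp e (Mb.of hi))
    have := k.gr'.fst (WK (conj_mem_of_mem_norm oW (k.memb WD jK a))) jK (by
      rw [Prod.snd_mul, Prod.snd_mul _ j, j2]; exact commute_iff_conj.1 c.symm)
    exact Prod.ext e (j2.symm.trans (congrArg Prod.snd (k.gr j jK (b (by rw [← o1]; exact (commute_iff_conj.2 this).symm)))))
  have gO : Gr (Mb v W ⊔ zpowers (v y * v n)) := fun p hp e => by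
    obtain ⟨a, ha, b, hb, rfl⟩ := (mem_sup_of_le_norm' (zpowers_le.2 oW)).1 hp
    have cb := (comm_zp (Commute.refl _) hb).symm
    have a1 := k.am.mem lt ha
    have a2 := (cw _ (k.fst a (WK ha)) fun i hi => (Mb.cent (fun j hj => by
      simpa [ev1] using cm_of (c5 i hi j hj)) a1).symm).2 (by
        rw [eq_inv_of_mul_eq_one_left e, ← o1]; exact Commute.inv_left (congrArg Prod.fst cb.eq :))
    rw [gW a ha a2, one_mul] at e ⊢
    exact key b (zpowers_le.2 oW hb) e (congrArg Prod.snd cb.eq :)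
  have gN : Gr (N[Mb v W] ⊓ N[Mb v W ⊔ zpowers (v y * v n)]) := fun p hp e =>
    key p hp.1 e (gr_cent gO hp.2 e (mem_sup_right (mem_zpowers _)))
  have nO : ∀ g ∈ N[Mb v W], g * (v y * v n) * g⁻¹ ∈ Mb v W ⊔ zpowers (v y * v n) →
      g ∈ N[Mb v W] ⊓ N[Mb v W ⊔ zpowers (v y * v n)] := fun g a b => mem_inf.2 ⟨a, norm_sup_zp a b⟩
  have nO' : ∀ x ∈ n' :: l, x < 25 → v x * (v y * v n) * (v x)⁻¹ * (v y * v n)⁻¹ ∈ K →
      v x * (v y * v n) * (v x)⁻¹ ∈ Mb v W ⊔ zpowers (v y * v n) := fun x hx a b => by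
    have := mul_mem (mem_sup_left (k.memb WD b (by
      rw [Prod.fst_mul, k.cjw a o1, mul_inv_rev, yi, ni, Prod.fst_mul, k.am.fst y (by omega), k.am.fst n (by omega)]
      simpa [evl, mul_assoc] using inS_mem md (c7 x hx)))) (mem_sup_right (T := zpowers (v y * v n)) (mem_zpowers _))
    rwa [inv_mul_cancel_right] at this
  have oi : v n * v y ∈ Mb v W ⊔ zpowers (v y * v n) := by
    rw [show v n * v y = (v y * v n)⁻¹ by rw [mul_inv_rev, yi, ni]]
    exact mem_sup_right (inv_mem (mem_zpowers _))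
  refine gN.mono (Mb.le ?_)
  simp only [List.forall_mem_cons]
  refine ⟨nO _ nW (by rwa [← mul_assoc, mul_inv_cancel_right]), nO _ (k.nrm h' c2) (nO' n' List.mem_cons_self c2.1 ?_),
    nO _ (xW y List.mem_cons_self) (by rwa [← mul_assoc, k.sq y1, one_mul, yi]), fun x hx => ?_⟩
  · have := mul_mem (mul_mem (h' y c4) hK) (inv_mem yK)
    rw [inv_eq_of_mul_eq_one_left (k.sq c2.1)] at this ⊢
    simpa only [mul_assoc, mul_inv_rev, ni, ← mul_assoc (v n') (v n'), k.sq c2.1, one_mul] using this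
  · obtain ⟨x1, x2, -⟩ := c6 x (List.mem_cons_of_mem _ hx)
    refine nO _ (xW x (List.mem_cons_of_mem _ hx)) (nO' x (List.mem_cons_of_mem _ hx) x1 ?_)
    have := mul_mem (mul_mem (mul_mem (k.mem x x2) yK) (inv_mem (h x hx))) (inv_mem yK)
    rwa [show ∀ a b c : X × H, a * b * (c * a * c⁻¹)⁻¹ * b⁻¹ = a * (b * c) * a⁻¹ * (b * c)⁻¹ from
      fun _ _ _ => by group] at this

/-- words for some letters -/
def wd (i : ℕ) : List ℕ :=
  if i = 19 then [9, 13, 12, 13, 9] else if i = 20 then [0, 14, 12, 14, 0] else if i = 21 then [24, 13, 24]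
  else if i = 22 then [23, 14, 23] else [i]
/-- words for some letters -/
def wk (i : ℕ) : List ℕ :=
  if i = 12 then [9, 0] else if i = 23 then [4, 10, 4] else if i = 24 then [7, 11, 7]
  else if i = 27 then [6, 2] else if i = 28 then [5, 3, 2] else wd i
/-- letters -/
def N2 : List ℕ := [0, 1, 2, 3, 4, 5, 6, 7, 8, 9, 11, 12, 13, 14, 19, 20, 21, 24, 27, 28]
/-- letters -/
def N3 : List ℕ := [0, 1, 2, 3, 4, 5, 6, 7, 8, 9, 10, 12, 13, 14, 19, 20, 22, 23, 27, 28]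

/-- derived letters -/
noncomputable def vd (v : ℕ → X × H) (i : ℕ) : X × H := evl v (wd i)

omit [Finite H] in
theorem vd_eq {i : ℕ} (hi : i < 19 ∨ 22 < i) : vd v i = v i := by
  rw [vd, wd, if_neg (by omega), if_neg (by omega), if_neg (by omega), if_neg (by omega)]; exact one_mul _

theorem HH.exists_N {da db g1 g2 : H} (h : HH R r da db g1 g2) :
    ∃ K v, KK r K v ∧ Gr (Mb v N2) ∧ Gr (Mb v N3) := by
  obtain ⟨K, v, k, a, b, c⟩ := h.exists_n'
  have k' : KK r K (vd v) := k.upd (fun i hi => vd_eq ((by decide : ∀ i ∈ Dl, i < 19 ∨ 22 < i) i hi))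
    fun i hi _ => by
      have : ∀ i < 25, llt 29 (wd i) = true ∧ eq (wd i) [i] = true := by decide +kernel
      refine ⟨(k.am.ev (llt_iff.1 (this i hi).1)).trans ((md.eq (this i hi).2).trans (ev1 i)), ?_⟩
      have t : ∀ i < 25, ∀ x, v i * (v i * x) = x := fun i hi x => by rw [← mul_assoc, k.sq hi, one_mul]
      unfold vd wd
      split_ifs <;> simp [evl, mul_assoc, t, k.sq, hi]
  have w : ∀ i < 29, vd v i = evl (vd v) (wk i) := fun i hi => by
    by_cases d : i ∈ Dl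
    · have : ∀ i ∈ Dl, lsub [i] Dl = true ∧ lsub (wk i) Dl = true ∧ eq [i] (wk i) = true := by decide +kernel
      exact (one_mul _).symm.trans (k'.eqw (this i d).1 (this i d).2.1 (this i d).2.2)
    · have : ∀ i < 29, i ∉ Dl → wk i = wd i ∧ ∀ j ∈ wd i, j < 19 ∨ 22 < j := by decide
      rw [(this i hi d).1]
      exact evl_congr fun j hj => (vd_eq ((this i hi d).2 j hj)).symm
  have a' : Cj K (vd v) (vd v 13) C1l := fun i hi => by
    rw [vd_eq (by norm_num), vd_eq ((by decide : ∀ i ∈ C1l, i < 19 ∨ 22 < i) i hi)]; exact a i hi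
  have b' : Cj K (vd v) (vd v 14) C2l := fun i hi => by
    rw [vd_eq (by norm_num), vd_eq ((by decide : ∀ i ∈ C2l, i < 19 ∨ 22 < i) i hi)]; exact b i hi
  have c1 : vd v 13 * vd v 14 * vd v 13 * vd v 14 ∈ K := by
    rw [vd_eq (by norm_num), vd_eq (by norm_num)]; simpa [evl] using c
  generalize vd v = u at *
  have c2 : u 14 * u 13 * u 14 * u 13 ∈ K := by
    have := inv_mem c1
    rwa [mul_inv_rev, mul_inv_rev, mul_inv_rev, inv_eq_of_mul_eq_one_left (k'.sq (i := 13) (by norm_num)),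
      inv_eq_of_mul_eq_one_left (k'.sq (i := 14) (by norm_num)), ← mul_assoc, ← mul_assoc] at this
  have st : ∀ l0 l1 : List ℕ, (∀ i ∈ l1, i < 29 ∧ (i ∈ l0 ∨ ∀ j ∈ wk i, j ∈ l0)) → Mb u l1 ≤ Mb u l0 :=
    fun l0 l1 e => Mb.le fun i hi => (e i hi).2.elim Mb.of fun d => w i (e i hi).1 ▸ Mb.ev d
  exact ⟨K, u, k', (k'.grN (y := 0) b' a' c1 (cenW (l := W2) (by decide +kernel) (by decide +kernel))
    (by decide +kernel)).mono ((st _ _ (by decide)).trans (st _ (N2.filter fun i => i < 19 ∨ 22 < i) (by decide))),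
    (k'.grN (y := 9) a' b' c2 (cenW (l := W3) (by decide +kernel) (by decide +kernel))
    (by decide +kernel)).mono ((st _ _ (by decide)).trans (st _ (N3.filter fun i => i < 19 ∨ 22 < i) (by decide)))⟩

theorem KK.grG (k : KK r K v) (lq : LQ R (r 3)) (ho : ∀ K : Subgroup H, Odd (Nat.card K) → R ≤ N[K] → K = ⊥)
    (g2 : Gr (Mb v N2)) (g3 : Gr (Mb v N3)) : Gr (Mb v Gl) ∧ K ≤ Mb v Gl := by
  have mems : ∀ l ∈ [Dl, N2, N3], Gr (Mb v l) := by simp [g2, g3, k.gr.mono (k.le (l := Dl) (by decide +kernel))]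
  obtain ⟨h1, -, h3, h4⟩ := k.am.idx_le md (ls := Gl) (ls0 := Ml) (ex := []) HeRTG.cert rfl mems (by simp)
    (by decide +kernel)
  have f1 : (Mb v Gl).map (MonoidHom.fst X H) = ⊤ := (k.am.map h1).trans exA.2.1.symm
  have h5 := stab_of_idx (S := (Mb m Ml).comap (MonoidHom.fst X H)) (fun p hp => k.am.mem (by decide) hp) h3 h4
    (Or.inr (by
      rw [relIndex_comap, f1, relIndex_top_right]
      have a := card_mul_index (Mb m Ml)
      have b := Nat.mul_le_mul_right (Mb m Ml).index cardM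
      rw [card_X] at a
      omega))
  have KG : K ≤ Mb v Gl := fun p hp => Mb.mono (by decide) (k.memb (l := [0, 1, 2, 3, 4, 5, 6, 7, 8, 12, 23, 24])
    (by decide +kernel) hp (Mb.le (fun i hi => by
      have : ∀ i ∈ Kl, ∃ w ∈ [[i], [0, 12], [4, 7, 24, 7, 23], [5, 23, 24, 7, 4]],
        lsub w [0, 1, 2, 3, 4, 5, 6, 7, 8, 12, 23, 24] = true ∧ eq [i] w = true := by decide +kernel
      obtain ⟨w, -, a, b⟩ := this i hi
      rw [← ev1, md.eq b]; exact Mb.ev' a) (k.fst p hp)))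
  have MV : Mb v Ml ≤ N[Mb v Vl] := Mb.le fun i hi => by
    have : ∀ i ∈ Ml, i < 29 ∧ nmChk fA 29 bs Vl [[27], [28], [27, 28]] [i] = true ∧
      ∃ l ∈ [Dl, N2, N3], i ∈ l ∧ ∀ j ∈ Vl, j ∈ l := by decide +kernel
    obtain ⟨a, b, l, c, d, e⟩ := this i hi
    exact k.am.norm (mems l c) pcV.1 (Mb.mono e) (Mb.of d) (by rw [k.am.fst i a, ← ev1]; exact md.norm b)
  have ct : ∀ p ∈ Mb v Gl, p.1 = 1 → Commute p.2 (v 27).2 := fun p hp e =>
    gr_cent (k.gr.mono (k.le (by decide +kernel))) (MV (h5 ⟨show p.1 ∈ Mb m Ml by rw [e]; exact one_mem _, hp⟩)) e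
      (Mb.of (by decide))
  refine ⟨fun p hp e => ?_, KG⟩
  by_contra ne
  have hz := lq.mem_of_norm ho (X := (Mb v Gl).comap (MonoidHom.inr X H)) (fun ρ hρ => mem_normalizer_of_conj
    fun x hx => by
      obtain ⟨q, a, rfl⟩ := k.snd ρ (mem_cent1.2 (lq.zc ρ hρ).symm)
      refine (congrArg (· ∈ Mb v Gl) (Prod.ext ?_ ?_)).mpr (mul_mem (mul_mem (KG a) hx) (inv_mem (KG a))) <;> simp)
    fun b => ne (Prod.ext e (mem_bot.1 (b.le (show (1, p.2) ∈ Mb v Gl from e ▸ hp))))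
  obtain ⟨g, hg⟩ := isConj_iff.1 (ic_of (w := [9]) (g := [7, 11, 4, 10, 0, 14]) (i := 3) (by decide +kernel))
  obtain ⟨q, a, rfl⟩ := f1.ge (mem_top g)
  have b := mul_mem (inv_mem (mul_mem (mul_mem a (mul_mem (KG (k.mem 3 (by decide))) (inv_mem hz))) (inv_mem a)))
    (KG (k.mem 9 (by decide)))
  have c := ct _ b (by simpa [k.am.fst 3, k.am.fst 9, ev1, inv_mul_eq_one, -mul_inv_rev] using hg)
  have d := k.gr'.fst (mul_mem (k.mem 9 (by decide)) (k.mem 27 (by decide)))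
    (mul_mem (k.mem 27 (by decide)) (k.mem 9 (by decide))) (by simpa [k.z] using c.eq)
  exact md.ne' num (w := [27, 9]) (w' := [9, 27]) (by decide +kernel) (by simpa [evl, k.am.fst 9, k.am.fst 27] using d)

theorem HH.exists_hom {da db g1 g2 : H} (h : HH R r da db g1 g2) : ∃ φ : X →* H, Function.Injective φ ∧
    (∀ i ∈ Rl, φ (m i) = r i) ∧ C1[r 3] ≤ D0.map φ := by
  obtain ⟨K, v, k, g2, g3⟩ := h.exists_N
  have s : g1 * r 3 * g1⁻¹ ∈ R := by rw [h.s1]; exact h.gen.ge (Mb.of (by decide))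
  have ne : g1 * r 3 * g1⁻¹ ≠ r 3 := by rw [h.s1]; exact h.n1
  obtain ⟨gG, KG⟩ := k.grG h.lq (h.lq.large_of_conj s ne (h.lq.mem_conj' s ne (by rw [h.cR]; norm_num))).2.2.2 g2 g3
  obtain ⟨φ, e⟩ := gG.exists_hom fun c => k.am.lift (by decide) (exA.2.1.le (mem_top c))
  refine ⟨φ, (MonoidHom.ker_eq_bot_iff φ).1 (odd_normal (Nat.not_even_iff_odd.1 fun o => ?_)), fun i hi => ?_,
    fun d hd => ?_⟩
  · have : Fact (Nat.Prime 2) := ⟨Nat.prime_two⟩
    obtain ⟨x, hx⟩ := exists_prime_orderOf_dvd_card' (G := φ.ker) 2 o.two_dvd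
    obtain ⟨g, -, a⟩ := syl_elt (a := 1) Nat.prime_two sylT (mem_top x.1) (by
      rw [pow_one, ← hx, ← Subgroup.coe_pow, pow_orderOf_eq_one]; rfl)
    obtain ⟨p, b, c⟩ := k.am.lift pcT.1 a
    have pK := k.le (by decide +kernel) b
    have := congrArg Prod.fst (k.gr' p pK (by rw [← e p (KG pK), c]; simp [MonoidHom.mem_ker.1 x.2]))
    rw [c, Prod.fst_one, conj_eq_one_iff] at this
    rw [show x = 1 from Subtype.ext this, orderOf_one] at hx
    exact absurd hx (by norm_num)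
  · have d := (by decide : ∀ i ∈ Rl, i ∈ Dl) i hi
    rw [← k.am.fst i (pcR.1 i hi), e _ (KG (k.mem i d)), k.rl i hi]
  · obtain ⟨p, a, rfl⟩ := k.snd d hd
    exact ⟨p.1, k.fst p a, e p (KG a)⟩

end Cfsg.Agent.HeR
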