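import Cfsg.Agent.HeR.T4
import Cfsg.Agent.XL.Rel2

/-! # Recognition of the Held group -/

set_option autoImplicit false
set_option maxRecDepth 100000

namespace Cfsg.Agent.HeR

open Cfsg Cfsg.Agent.GT Cfsg.Agent.TT Cfsg.Agent.TC Cfsg.Agent.XL Cfsg.Agent.M24 Subgroup MulAction

/-- strong embedding modulo a central subgroup -/
theorem se_mod {G : Type*} [Group G] [Finite G] {Y V J : Subgroup G} {z : G} (h1 : V ≤ Y) (h2 : J ≤ Y)
    (hV : ∀ u ∈ V, u * u = 1 ∧ ∀ x, Commute u x) (zz : z * z = 1) (hz : z ∈ Y)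
    (hc : ∀ x, ∀ u ∈ V, x * z * x⁻¹ = u * z → x ∈ J)
    (hs : ∀ x ∈ Y, x * x ∈ V → x ∉ V → ∃ g ∈ Y, ∃ u ∈ V, g * x * g⁻¹ = u * z) (zV : z ∉ V)
    (cY : Nat.card Y = 80640) (cJ : Nat.card J = 256) (cV : Nat.card V = 4) :
    Y = ⊤ ∨ ∃ a ∈ Y, ∃ b ∈ Y, orderOf a = 5 ∧ orderOf b = 7 ∧ Commute a b := by
  have : V.Normal := ⟨fun u hu g => by rwa [← ((hV u hu).2 g).eq, mul_inv_cancel_right]⟩
  let π := QuotientGroup.mk' V
  have k1 : ∀ x, π x = 1 ↔ x ∈ V := fun x => QuotientGroup.eq_one_iff x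
  have sj : Function.Surjective π := QuotientGroup.mk'_surjective V
  have c0 : Nat.card (Y.map π) = 20160 := by
    have := card_mul_relIndex h1
    rw [← relIndex_ker, QuotientGroup.ker_mk']
    rw [cY, cV] at this
    omega
  have c1 : C1[π z] ≤ J.map π := fun x hx => by
    obtain ⟨x, rfl⟩ := sj x
    exact ⟨x, hc x (x * z * x⁻¹ * z⁻¹) ((k1 _).1 (by simp [mem_cent1.1 hx])) (by simp), rfl⟩
  have cl : ∀ t ∈ Y.map π, t * t = 1 → t ≠ 1 → ∃ h ∈ Y.map π, t = h * π z * h⁻¹ := by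
    rintro _ ⟨x, hx, rfl⟩ a b
    obtain ⟨g, hg, u, hu, e⟩ := hs x hx ((k1 _).1 (by rwa [map_mul])) (mt (k1 _).2 b)
    refine ⟨π g⁻¹, ⟨_, inv_mem hg, rfl⟩, ?_⟩
    rw [← one_mul (π z), ← (k1 u).2 hu, ← map_mul, ← e]; simp [mul_assoc]
  have z2 : π z * π z = 1 := by rw [← map_mul, zz, map_one]
  by_cases e : Y.map π = ⊤
  · exact Or.inl (by rw [← comap_map_eq_self (f := π) (H := Y) (by rwa [QuotientGroup.ker_mk']), e, comap_top])
  obtain ⟨D, d1, d2, d3⟩ := se_abs (H := Y.map π) z2 ⟨z, hz, rfl⟩ (fun g hg => by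
    obtain ⟨h, a, b⟩ := cl _ hg (by simpa using conj_mul_self g⁻¹ z2) (by
      simpa [mul_assoc, inv_mul_eq_one] using mt (k1 z).1 zV)
    have : g * h ∈ Y.map π := map_mono h2 (c1 (mem_cent1.2 (by
      rw [mul_assoc, mul_inv_eq_iff_eq_mul.1 b.symm]; group)))
    exact (mul_mem_cancel_right a).1 this) cl e
  obtain ⟨a, ha, b, hb, o5, o7, c⟩ := pq_comm d1 d2 (p := 5) (q := 7) (by norm_num) (by norm_num) (by norm_num)
    (by norm_num) (Dvd.dvd.trans (by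
      have a := card_mul_relIndex (inf_le_right : C1[π z] ⊓ Y.map π ≤ _)
      have b : Nat.card (C1[π z] ⊓ Y.map π : Subgroup _) ∣ 256 :=
        (card_dvd_of_le (inf_le_left.trans c1)).trans (cJ ▸ card_map_dvd J π)
      rw [inf_relIndex_right, c0] at a
      exact (Nat.Coprime.coprime_dvd_right b (by norm_num)).dvd_of_dvd_mul_left (by rw [a]; norm_num)) d3)
    (by rw [c0]; norm_num) (by rw [c0]; norm_num)
  obtain ⟨a, ha, rfl⟩ := ha
  obtain ⟨b, hb, rfl⟩ := hb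
  have o : ∀ {x : G} {p : ℕ}, p.Prime → p ≠ 2 → orderOf (π x) = p → orderOf (x ^ 2) = p := fun {x p} hp h2 h =>
    PG.orderOf_eq_prime' hp (by
      rw [← pow_mul, mul_comm, pow_mul, sq]
      exact (hV _ ((k1 _).1 (by rw [map_pow, ← h, pow_orderOf_eq_one]))).1) fun e => h2 (((Nat.prime_dvd_prime_iff_eq
        hp Nat.prime_two).1 (h ▸ orderOf_dvd_of_pow_eq_one (by rw [← map_pow, e, map_one]))))
  refine Or.inr ⟨_, pow_mem ha 2, _, pow_mem hb 2, o (by norm_num) (by norm_num) o5, o (by norm_num) (by norm_num) o7,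
    Commute.pow_right (commute_iff_conj.2 ?_) 2⟩
  obtain ⟨u1, u2⟩ := hV (a * b * a⁻¹ * b⁻¹) ((k1 _).1 (by simp [c.eq]))
  generalize e : a * b * a⁻¹ * b⁻¹ = u at u1 u2
  have e' : a * b * a⁻¹ = u * b := by rw [← e]; group
  rw [show a ^ 2 * b * (a ^ 2)⁻¹ = a * (a * b * a⁻¹) * a⁻¹ by rw [sq]; group, e', ← mul_assoc, ← (u2 a).eq,
    mul_assoc u, mul_assoc u, e', ← mul_assoc, u1, one_mul]

theorem vEl : ∀ u ∈ Mb m Vl, u * u = 1 ∧ (u = 1 ∨ IsConj (m 3) (m 27 * (u * m 3))) ∧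
    (u = 1 ∨ u = m 27 ∨ u = m 28 ∨ u = m 28 * m 27) := fun u hu => by
  obtain ⟨w, -, -, rfl, e⟩ := pcV.all (P := fun w => band (band (eq (w ++ w) []) (bor (eq w []) (wit witC
    (3 :: w ++ [27]) fun g => eq (3 :: w ++ [27] ++ g) (g ++ [3])))) (bor (eq w []) (bor (eq w [27]) (bor (eq w [28])
    (eq w [27, 28]))))) (by decide +kernel) u hu
  simp only [band_eq, bor_eq, Bool.and_eq_true, Bool.or_eq_true] at e
  refine ⟨(evl_append _ _ _).symm.trans (md.eq e.1.1), e.1.2.imp md.eq fun e => ?_,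
    e.2.imp md.eq (Or.imp ?_ (Or.imp ?_ ?_))⟩
  · obtain ⟨g, e⟩ := wit_ex e
    simpa only [evl, evl_append, one_mul, List.cons_append, mul_assoc] using ic_of e
  all_goals exact fun e => by simpa [evl] using md.eq e

theorem cLV : ∀ u ∈ Mb m Vl, ∀ g ∈ Mb m Ll, Commute u g := fun u hu g hg =>
  (Mb.cent (fun i hi => (Mb.cent (fun j hj => by
    have : ∀ i ∈ Vl, ∀ j ∈ Ll, cb [i] [j] = true := by decide +kernel
    simpa [ev1] using cm_of (this i hi j hj)) hg).symm) hu).symm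

theorem JL : Mb m Jl ≤ Mb m Ll := Mb.mono (by decide)

theorem VJ : Mb m Vl ≤ Mb m Jl := Mb.le (by
  simp only [Vl, List.forall_mem_cons, e27, e28]
  exact ⟨mul_mem (Mb.of (by decide)) (Mb.of (by decide)),
    mul_mem (mul_mem (Mb.of (by decide)) (Mb.of (by decide))) (Mb.of (by decide)), by simp⟩)

theorem clsL : ∀ x ∈ Mb m Ll, x * x ∈ Mb m Vl → x ∉ Mb m Vl →
    ∃ g ∈ Mb m Ll, ∃ u ∈ Mb m Vl, g * x * g⁻¹ = u * m 3 := fun x hx h h1 => by
  obtain ⟨g, hg, e⟩ := syl_elt (a := 2) Nat.prime_two (syl_card (a := 8) (b := 315) Nat.prime_two JL pcJ.2.2 cardL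
    (by norm_num)) hx (by rw [sq 2, pow_mul, sq, sq]; exact (vEl _ h).1)
  obtain ⟨g', a, u, b, c⟩ := clsY _ e (by
    rwa [show g * x * g⁻¹ * (g * x * g⁻¹) = g * (x * x) * g⁻¹ by group, ← (cLV _ h g hg).eq, mul_inv_cancel_right])
    fun k => h1 (by
      have := (cLV _ k g hg).eq
      rwa [inv_mul_cancel_right, mul_right_inj, eq_comm] at this ▸ k)
  exact ⟨g' * g, mul_mem a hg, u, b, by rw [← c]; group⟩

variable {H : Type*} [Group H] [Finite H] {φ : X →* H}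

theorem ic_map {x y : X} (h : IsConj x y) : IsConj (φ x) (φ y) := φ.map_isConj h

theorem two_cls : ∀ x ∈ φ.range, x * x = 1 → x ≠ 1 → Function.Injective φ →
    ∃ h ∈ φ.range, x = h * φ (m 3) * h⁻¹ ∨ x = h * φ (m 27) * h⁻¹ := by
  rintro _ ⟨x, rfl⟩ a b hi
  rcases clsX x (hi (by rw [map_mul, a, map_one])) fun e => b (by rw [e, map_one]) with c | c <;>
    obtain ⟨g, rfl⟩ := isConj_iff.1 c
  exacts [⟨φ g, ⟨g, rfl⟩, Or.inl (by simp)⟩, ⟨φ g, ⟨g, rfl⟩, Or.inr (by simp)⟩]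

theorem ctl (hi : Function.Injective φ) (hz : C1[φ (m 3)] ≤ D0.map φ) (n : ¬ IsConj (φ (m 3)) (φ (m 27)))
    {x g : H} (hx : x ∈ φ.range) (c : IsConj (φ (m 3)) x) (hg : g * x * g⁻¹ ∈ φ.range) : g ∈ φ.range := by
  have k : ∀ x ∈ φ.range, IsConj (φ (m 3)) x → ∃ h ∈ φ.range, x = h * φ (m 3) * h⁻¹ := fun x hx c => by
    obtain ⟨y, e⟩ := isConj_iff.1 c
    obtain ⟨h, a, b⟩ := two_cls x hx (e ▸ conj_mul_self y (by rw [← map_mul, msq (by norm_num), map_one]))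
      (fun a => md.ne' num (w := [3]) (w' := []) (by decide +kernel) (hi (by
        rw [ev1, evl, map_one]; exact isConj_one_left.1 (a ▸ c)))) hi
    exact ⟨h, a, b.resolve_right fun b => n (c.trans (isConj_iff.2 ⟨h, b.symm⟩).symm)⟩
  obtain ⟨h, a, rfl⟩ := k x hx c
  obtain ⟨h', a', e⟩ := k _ hg (c.trans (isConj_iff.2 ⟨g, rfl⟩))
  have : h'⁻¹ * g * h ∈ φ.range := map_le_range φ _ (hz (mem_cent1.2 (by
    rw [← mul_inv_eq_iff_eq_mul, show h'⁻¹ * g * h * φ (m 3) * (h'⁻¹ * g * h)⁻¹ =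
      h'⁻¹ * (g * (h * φ (m 3) * h⁻¹) * g⁻¹) * h' by group, e]; group)))
  exact (mul_mem_cancel_left (inv_mem a')).1 ((mul_mem_cancel_right a).1 this)

theorem zt : IsConj (m 27) (m 27 * m 3) := by
  simpa [evl] using ic_of (w := [3, 27]) (g := [0]) (i := 27) (by decide +kernel)

theorem cenL (hi : Function.Injective φ) (hz : C1[φ (m 3)] ≤ D0.map φ) (n : ¬ IsConj (φ (m 3)) (φ (m 27))) :
    C1[φ (m 27)] ⊓ C1[φ (m 28)] ≤ φ.range := by
  set L := C1[φ (m 27)] ⊓ C1[φ (m 28)]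
  have YL : (Mb m Ll).map φ ≤ L := by
    rintro _ ⟨x, hx, rfl⟩
    exact ⟨mem_cent1.2 ((cLV _ (Mb.of (by decide)) x hx).symm.map φ),
      mem_cent1.2 ((cLV _ (Mb.of (by decide)) x hx).symm.map φ)⟩
  have cd : ∀ S ≤ Mb m Ll, Nat.card ((S.map φ).subgroupOf L) = Nat.card S := fun S hS =>
    (card_subgroupOf ((map_mono hS).trans YL)).trans (card_map_of_injective hi)
  have z3 : m 3 ∈ Mb m Ll := Mb.of (by decide)
  rcases se_mod (G := L) (Y := ((Mb m Ll).map φ).subgroupOf L) (V := ((Mb m Vl).map φ).subgroupOf L)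
    (J := ((Mb m Jl).map φ).subgroupOf L) (z := ⟨φ (m 3), YL ⟨_, z3, rfl⟩⟩)
    (comap_mono (map_mono (VJ.trans JL))) (comap_mono (map_mono JL)) (by
      rintro ⟨_, h⟩ ⟨u, hu, rfl⟩
      refine ⟨Subtype.ext (by simp [← map_mul, (vEl u hu).1]), fun x => Subtype.ext ?_⟩
      have : (Mb m Vl).map φ ≤ C1[x.1] := by
        rw [Mb.map]
        exact Mb.le (by simpa [Vl] using ⟨mem_cent1_comm.1 x.2.1, mem_cent1_comm.1 x.2.2⟩)
      exact mem_cent1.1 (this ⟨u, hu, rfl⟩)) (Subtype.ext (by simp [← map_mul, msq])) ⟨_, z3, rfl⟩ (by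
      rintro x ⟨_, h⟩ ⟨u, hu, rfl⟩ e
      replace e : x.1 * φ (m 3) * x.1⁻¹ = φ u * φ (m 3) := congrArg Subtype.val e
      have c : Commute x.1 (φ (m 27)) := mem_cent1.1 x.2.1
      rcases (vEl u hu).2.1 with rfl | k
      · obtain ⟨y, a, b⟩ := hz (mem_cent1.2 (mul_inv_eq_iff_eq_mul.1 (e.trans (by simp))))
        exact ⟨y, cenV y a (hi (by simpa [b] using c.eq)) (hi (by simpa [b] using mem_cent1.1 x.2.2)), b⟩
      · refine absurd ((ic_map k).trans ((ic_map zt).trans (isConj_iff.2 ⟨x.1, ?_⟩)).symm) n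
        rw [map_mul, map_mul, map_mul, ← e, ← mul_assoc, c.eq]; group) (by
      rintro ⟨_, h⟩ ⟨x, hx, rfl⟩ ⟨y, a, b⟩ c
      obtain ⟨g, d, u, e, f⟩ := clsL x hx (by rwa [← hi (b.trans (map_mul φ x x).symm)]) fun k => c ⟨x, k, rfl⟩
      exact ⟨⟨φ g, YL ⟨g, d, rfl⟩⟩, ⟨g, d, rfl⟩, ⟨φ u, YL ⟨u, JL (VJ e), rfl⟩⟩, ⟨u, e, rfl⟩, Subtype.ext (by
        simpa using congrArg φ f)⟩) (by
      rintro ⟨u, a, b⟩
      have := pcV.inS md num (w := [3]) (by simp) (by rwa [ev1, ← hi b])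
      exact absurd this (by decide +kernel)) ((cd _ le_rfl).trans cardL) ((cd _ JL).trans pcJ.2.2)
      ((cd _ (VJ.trans JL)).trans pcV.2.2) with e | ⟨⟨_, h⟩, ⟨a, ha, rfl⟩, ⟨_, h'⟩, ⟨b, -, rfl⟩, o5, o7, c⟩
  · exact (subgroupOf_eq_top.1 e).trans (map_le_range _ _)
  · rw [← Subgroup.orderOf_coe, orderOf_injective φ hi] at o5 o7
    exact absurd (hi (by simpa using congrArg Subtype.val c.eq)) (no35 a ha b o5 o7)

theorem cenT (hi : Function.Injective φ) (hz : C1[φ (m 3)] ≤ D0.map φ) (n : ¬ IsConj (φ (m 3)) (φ (m 27)))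
    (c2 : IsConj (φ (m 3)) (φ (m 2))) (c6 : IsConj (φ (m 3)) (φ (m 6))) : C1[φ (m 27)] ≤ φ.range := fun g hg => by
  refine ctl hi hz n ⟨m 2, rfl⟩ c2 ?_
  have sq : ∀ i < 25, φ (m i) * φ (m i) = 1 := fun i h => by rw [← map_mul, msq h, map_one]
  have gt : Commute g (φ (m 27)) := mem_cent1.1 hg
  have u1 : IsConj (φ (m 3)) (g * φ (m 2) * g⁻¹) := c2.trans (isConj_iff.2 ⟨g, rfl⟩)
  have u2 : IsConj (φ (m 3)) (φ (m 27) * (g * φ (m 2) * g⁻¹)) := c6.trans (isConj_iff.2 ⟨g, by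
    rw [← mul_assoc, ← mul_assoc, ← gt.eq, mul_assoc g (φ (m 27)), ← map_mul,
      show m 27 * m 2 = m 6 by simpa [evl] using md.eq (w := [2, 27]) (w' := [6]) (by decide +kernel)]⟩)
  have u3 : Commute (g * φ (m 2) * g⁻¹) (φ (m 27)) := (gt.mul_left (Commute.map (by
    simpa [ev1] using cm_of (w := [2]) (w' := [27]) (by decide +kernel)) φ)).mul_left gt.inv_left
  have u4 := conj_mul_self g (sq 2 (by norm_num))
  generalize g * φ (m 2) * g⁻¹ = u at *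
  have z3 : Commute (m 3) (m 27) := by simpa [ev1] using cm_of (w := [3]) (w' := [27]) (by decide +kernel)
  have zz := sq 3 (by norm_num)
  have ct : ∀ j : ℕ, Commute ((φ (m 3) * u) ^ j) (φ (m 27)) := fun j => ((z3.map φ).mul_left u3).pow_left j
  have nA : ∀ x, IsConj (m 27) x → ¬ IsConj (φ (m 3)) (φ x) := fun x a b => n (b.trans (ic_map a).symm)
  rcases Nat.even_or_odd (orderOf (φ (m 3) * u)) with o | o
  · obtain ⟨j, -, w1, w2, w3, w4⟩ := exists_central_of_even zz u4 o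
    have w5 : IsConj (φ (m 3)) (φ (m 3) * (φ (m 3) * u) ^ j) := mul_pow_mem (D := {x | IsConj (φ (m 3)) x})
      (fun g d h => IsConj.trans h (isConj_iff.2 ⟨g, rfl⟩)) zz u4 (IsConj.refl _) u1 j
    obtain ⟨w, a, e⟩ := hz (mem_cent1.2 w3.symm)
    have w6 := ct j
    rw [← e] at w1 w2 w3 w4 w5 w6
    have b := cenU w a (hi (by simpa using w6.eq))
    have ww : w * w = 1 := hi (by simpa using w2)
    have c3 : Commute (m 3) w := hi (by simpa using w3.eq)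
    have wJ : w ∈ Mb m Jl := (mul_mem_cancel_left (Mb.of (i := 3) (by decide))).1 ((clsU _
      (mul_mem (Mb.of (by decide)) b) (by
      rw [mul_assoc, ← mul_assoc w, ← c3.eq, mul_assoc, ww, mul_one, msq (by norm_num)])).resolve_right fun k =>
        nA _ k (by rwa [map_mul]))
    have k : ∀ x, IsConj (m 3) x → Commute u (φ x) → u ∈ φ.range := fun x a b =>
      ctl hi hz n ⟨x, rfl⟩ (ic_map a) ⟨x, (commute_iff_conj.1 b).symm⟩
    rcases clsJ w wJ ww with d | d | d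
    · refine cenL hi hz n ⟨mem_cent1.2 u3, mem_cent1.2 ?_⟩
      rcases (vEl w d).2.2 with rfl | rfl | rfl | rfl
      · exact absurd (map_one φ) w1
      · exact absurd (by rwa [← z3.eq, map_mul]) (nA _ zt)
      · exact w4
      · have := w4.mul_right u3.inv_right
        rwa [map_mul, mul_inv_cancel_right] at this
    · exact k w d w4
    · exact k _ d (by rw [map_mul]; exact w4.mul_right u3)
  · obtain ⟨j, e⟩ := conj_of_odd zz u4 o (pow_orderOf_eq_one _)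
    refine absurd (u2.trans (isConj_iff.2 ⟨((φ (m 3) * u) ^ j)⁻¹, ?_⟩)) (nA _ zt)
    have c := ct j
    generalize (φ (m 3) * u) ^ j = y at e c
    rw [map_mul, ← e, ← mul_assoc, c.inv_left.eq]; group

theorem HH.isoHe {R : Subgroup H} {r : ℕ → H} {da db g1 g2 : H} (h : HH R r da db g1 g2) :
    Nonempty (H ≃* Spor.He) := by
  obtain ⟨φ, hi, e, hz⟩ := h.exists_hom
  have e3 := e 3 (by decide)
  have n : ¬ IsConj (φ (m 3)) (φ (m 27)) := by
    rw [e27, map_mul, e3, e 2 (by decide), e 6 (by decide)]; exact h.nc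
  rw [← e3] at hz
  have := eq_top_of_two (H := φ.range) (by rw [e3]; exact h.lq.zz)
    (by rw [← map_mul, (vEl _ (Mb.of (by decide))).1, map_one]) (by rw [e3]; exact h.lq.ne)
    (hz.trans (map_le_range _ _)) (cenT hi hz n (by rw [e3, e 2 (by decide)]; exact isConj_iff.2 ⟨_, h.s1⟩)
      (by rw [e3, e 6 (by decide)]; exact isConj_iff.2 ⟨_, h.s2⟩)) n fun x a b c => two_cls x a b c hi
  obtain ⟨ψ⟩ := isoX
  exact ⟨(MulEquiv.ofBijective φ ⟨hi, MonoidHom.range_eq_top.1 this⟩).symm.trans ψ.symm⟩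

end Cfsg.Agent.HeR
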