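import Cfsg.Agent.HeR.D
import Cfsg.Agent.HeR.HH
import Cfsg.Agent.He9.Ord

/-! # A permutation model of the Held group on 2058 points -/

set_option autoImplicit false
set_option maxRecDepth 100000

namespace Cfsg.Agent.HeR

open Cfsg Cfsg.Agent.GT Cfsg.Agent.TT Cfsg.Agent.TC Cfsg.Agent.XL Cfsg.Agent.M24 Subgroup MulAction
  Cfsg.Spor Cfsg.Spor.He

/-- first tables -/
noncomputable def fB (i q : ℕ) : ℕ := apw (nat_lit 12) (nat_lit 4095) (jB i) q
/-- action of the letters -/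
noncomputable def fA (i q : ℕ) : ℕ := apw (nat_lit 12) (nat_lit 4095) (jA i) q

/-- index of a generator -/
def gi : Gen → ℕ
  | .a => 0 | .b => 1 | .c => 2 | .d => 3 | .e => 4 | .f => 5 | .g => 6

theorem mem_pww {w : List ℕ} {i : ℕ} : ∀ {n}, i ∈ pww w n → i ∈ w
  | 0, h => by simp [pww] at h
  | _ + 1, h => (List.mem_append.1 h).elim id mem_pww

theorem cox_chk : ∀ x y, ptEq 2058 (apl fB (pww [gi y, gi x] (coxLabel edges x y))) (fun q => q) = true := by
  intro x y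
  cases x <;> cases y <;> decide +kernel

theorem ext_chk : ptEq 2058 (apl fB [4]) (apl fB (pww [6, 5] 2)) = true ∧
    ptEq 2058 (apl fB [4]) (apl fB (pww [2, 1, 0] 3)) = true ∧
    ptEq 2058 (apl fB [0]) (apl fB (pww [3, 2] 5)) = true ∧
    ptEq 2058 (apl fB (pww [6, 5, 3, 2] 4)) (apl fB []) = true := by decide +kernel

theorem wA_chk : nall 29 (fun i => band (llt 7 (dw (lget wA 0 i)))
    (ptEq 2058 (apl fB (dw (lget wA 0 i))) (fA i))) = true := by decide +kernel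

theorem exists_X : ∃ (Y : Subgroup (Equiv.Perm (Fin 2058))) (m : ℕ → Y),
    (∃ ψ : Spor.He →* Y, Function.Surjective ψ) ∧ Ma (Ω := Fin 2058) Fin.val m fA 29 2058 := by
  obtain ⟨u, hu⟩ := invTab_sound (f := fB) (k := 7) (n := 2058) (by decide +kernel)
  let v : ℕ → closure (u '' {i | i < 7}) := fun i => if h : i < 7 then ⟨u i, subset_closure ⟨i, h, rfl⟩⟩ else 1
  have a : Ma (Ω := Fin 2058) Fin.val v fB 7 2058 :=
    ⟨Fin.val_injective, fun i hi x => by simpa [v, hi] using (hu i hi).2 x, fun x => x.2,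
      fun q hq => ⟨⟨q, hq⟩, rfl⟩⟩
  have e : ∀ {w w' : List ℕ}, (∀ i ∈ w, i < 7) → (∀ i ∈ w', i < 7) → ptEq 2058 (apl fB w) (apl fB w') = true →
      evl v w = evl v w' := fun h1 h2 h => Subtype.ext (ptEq_sound h (a.ap h1) (a.ap h2))
  have g7 : ∀ x, gi x < 7 := fun x => by cases x <;> decide
  obtain ⟨ψ, hψ⟩ := cox_lift (edges := edges) (extra := extra) (fun x => v (gi x)) (fun x y => by
    have := e (w' := []) (fun i hi => by
      rcases List.mem_pair.1 (mem_pww hi) with h | h <;> exact h ▸ g7 _) (by simp) (cox_chk x y)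
    simpa [evl_pww, evl] using this) (He9.extra_iff.2 ⟨
      by simpa [evl_pww, evl, gi] using e (by decide) (by decide) ext_chk.1,
      by simpa [evl_pww, evl, gi, mul_assoc] using e (by decide) (by decide) ext_chk.2.1,
      by simpa [evl_pww, evl, gi] using e (by decide) (by decide) ext_chk.2.2.1,
      by simpa [evl_pww, evl, gi, mul_assoc] using e (by decide) (by decide) ext_chk.2.2.2⟩)
  refine ⟨_, _, ⟨ψ, fun ⟨x, hx⟩ => ?_⟩, a.ext (wd := lget wA 0) wA_chk⟩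
  induction hx using closure_induction with
  | mem x hx =>
    obtain ⟨i, hi, rfl⟩ := hx
    obtain ⟨y, rfl⟩ : ∃ y, gi y = i := by
      change i < 7 at hi
      interval_cases i
      exacts [⟨.a, rfl⟩, ⟨.b, rfl⟩, ⟨.c, rfl⟩, ⟨.d, rfl⟩, ⟨.e, rfl⟩, ⟨.f, rfl⟩, ⟨.g, rfl⟩]
    exact ⟨_, (hψ y).trans (dif_pos (g7 y))⟩
  | one => exact ⟨1, map_one _⟩
  | mul x y _ _ h1 h2 =>
    obtain ⟨a, ha⟩ := h1; obtain ⟨b, hb⟩ := h2
    exact ⟨a * b, by rw [map_mul, ha, hb]; rfl⟩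
  | inv x _ h1 =>
    obtain ⟨a, ha⟩ := h1
    exact ⟨a⁻¹, by rw [map_inv, ha]; rfl⟩

/-- the model -/
abbrev X : Type := exists_X.choose

/-- the letters -/
noncomputable def m : ℕ → X := exists_X.choose_spec.choose

/-- index of a point -/
abbrev idx : Fin 2058 → ℕ := Fin.val

theorem ma : Ma idx m fA 29 2058 := exists_X.choose_spec.choose_spec.2

/-- generators -/
def Gl : List ℕ := [1, 2, 3, 4, 5, 6, 7, 8, 12, 19, 20, 21, 22, 0, 13, 14, 23, 24]
/-- the base -/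
def bs : List ℕ := [19, 3, 0, 18]

theorem card_le : Nat.card X ≤ 4030387200 := by
  obtain ⟨ψ, h⟩ := exists_X.choose_spec.choose_spec.1
  obtain ⟨_, hN⟩ := He9.card_He
  exact (Nat.card_le_card_of_surjective ψ h).trans hN

theorem exA : Ex idx ⊤ (Mb m []) [l0, l1, l2, l3] [] ∧ ⊤ = Mb m Gl ∧ Nat.card (⊤ : Subgroup X) = 4030387200 :=
  ma.exact le_top card_nil (card_top.trans_le card_le) (by decide +kernel)

theorem card_X : Nat.card X = 4030387200 := card_top.symm.trans exA.2.2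

theorem isoX : Nonempty (Spor.He ≃* X) := by
  obtain ⟨ψ, h⟩ := exists_X.choose_spec.choose_spec.1
  obtain ⟨_, hN⟩ := He9.card_He
  exact ⟨MulEquiv.ofBijective ψ (h.bijective_of_nat_card_le (card_X ▸ hN))⟩

theorem md : Md idx m fA 29 bs := ma.md exA.1.last

theorem num : Md.Num idx 2058 bs := ma.num (by decide)

theorem ev1 (i : ℕ) : evl m [i] = m i := one_mul _

/-- equality of words -/
noncomputable abbrev eq : List ℕ → List ℕ → Bool := eqw fA 29 bs
/-- commuting words -/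
noncomputable abbrev cb : List ℕ → List ℕ → Bool := cmb fA 29 bs

theorem trans (x y : Fin 2058) : ∃ g : X, g • x = y := by
  obtain ⟨x0, -, h, -⟩ := ma.lv (ls := Gl) (p := []) (L := l0) (by decide) (by decide +kernel)
  have c : nall 2058 l0.t.has = true := by decide +kernel
  have k : ∀ y : Fin 2058, ∃ g : X, g • x0 = y := fun y =>
    let ⟨g, _, e⟩ := h _ (T.has_sound ((nall_iff _ _).1 c _ y.2)); ⟨g, Fin.ext e⟩
  obtain ⟨a, rfl⟩ := k x
  obtain ⟨b, rfl⟩ := k y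
  exact ⟨b * a⁻¹, by rw [mul_smul, inv_smul_smul]⟩

theorem card_stab (x : Fin 2058) : Nat.card (stabilizer X x) = 1958400 := by
  have := card_orb (⊤ : Subgroup X) x
  rw [exA.2.2, top_inf_eq, show {y | ∃ g ∈ (⊤ : Subgroup X), g • x = y} = Set.univ from
    Set.eq_univ_of_forall fun y => let ⟨g, e⟩ := trans x y; ⟨g, trivial, e⟩, Set.ncard_univ,
    Nat.card_eq_fintype_card, Fintype.card_fin] at this
  omega

theorem odd_normal {K : Subgroup X} [hK : K.Normal] (ho : Odd (Nat.card K)) : K = ⊥ := by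
  let x0 : Fin 2058 := 18
  let O := {y | ∃ g ∈ K, g • x0 = y}
  have key : ∀ L, lvChk fA Gl 2058 [18] L = true → ∃ a b, a + b = L.t.size ∧ (a = 0 ∨ b = 0) ∧
      ({y | idx y ∈ L.t.keys} ∩ O).ncard = a ∧ ({y | idx y ∈ L.t.keys} \ O).ncard = b := fun L hL => by
    obtain ⟨x, -, h, c⟩ := ma.lv (by decide) hL
    refine ⟨_, _, (Set.ncard_inter_add_ncard_sdiff_eq_ncard _ _).trans (c _ fun _ => Iff.rfl), ?_, rfl, rfl⟩
    have k : ∀ y, idx y ∈ L.t.keys → (y ∈ O ↔ x ∈ O) := fun y hy => by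
      obtain ⟨g, hg, e⟩ := h _ hy
      have g0 : g • x0 = x0 := mem_fxs.1 hg.2 x0 (by decide)
      obtain rfl : g • x = y := Fin.ext e
      exact ⟨fun ⟨k, hk, e⟩ => ⟨g⁻¹ * k * g, by simpa using hK.conj_mem k hk g⁻¹, by
        rw [mul_smul, mul_smul, g0, e, inv_smul_smul]⟩, fun ⟨k, hk, e⟩ => ⟨g * k * g⁻¹, hK.conj_mem k hk g, by
        rw [mul_smul, mul_smul, inv_smul_eq_iff.2 g0.symm, e]⟩⟩
    by_cases hx : x ∈ O
    · exact Or.inr ((Set.ncard_eq_zero).2 (Set.eq_empty_of_forall_notMem fun y hy => hy.2 ((k y hy.1).2 hx)))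
    · exact Or.inl ((Set.ncard_eq_zero).2 (Set.eq_empty_of_forall_notMem fun y hy => hx ((k y hy.1).1 hy.2)))
  obtain ⟨a1, b1, c1, d1, e1, f1⟩ := key l1 (by decide +kernel)
  obtain ⟨a2, b2, c2, d2, e2, f2⟩ := key s0 (by decide +kernel)
  obtain ⟨a3, b3, c3, d3, e3, f3⟩ := key s1 (by decide +kernel)
  obtain ⟨a4, b4, c4, d4, e4, f4⟩ := key s2 (by decide +kernel)
  rw [show l1.t.size = 1360 by decide +kernel] at c1
  rw [show s0.t.size = 425 by decide +kernel] at c2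
  rw [show s1.t.size = 136 by decide +kernel] at c3
  rw [show s2.t.size = 136 by decide +kernel] at c4
  have c : nall 2058 (fun q => bor (Nat.beq q 18) (bor (bor (l1.t.has q) (s0.t.has q))
    (bor (s1.t.has q) (s2.t.has q)))) = true := by decide +kernel
  have cov : ∀ y : Fin 2058, y = x0 ∨ (idx y ∈ l1.t.keys ∨ idx y ∈ s0.t.keys) ∨
      idx y ∈ s1.t.keys ∨ idx y ∈ s2.t.keys := fun y => by
    have := (nall_iff _ _).1 c _ y.2
    simp only [bor_eq, Bool.or_eq_true, Nat.beq_eq] at this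
    exact this.imp (fun h => Fin.ext h) (Or.imp (Or.imp T.has_sound T.has_sound) (Or.imp T.has_sound T.has_sound))
  have x0O : x0 ∈ O := ⟨1, one_mem _, one_smul _ _⟩
  have u1 : O.ncard ≤ 1 + ((a1 + a2) + (a3 + a4)) := by
    rw [← e1, ← e2, ← e3, ← e4, ← Set.ncard_singleton x0]
    refine (Set.ncard_le_ncard fun y hy => ?_).trans ((Set.ncard_union_le _ _).trans (Nat.add_le_add_left
      ((Set.ncard_union_le _ _).trans (Nat.add_le_add (Set.ncard_union_le _ _) (Set.ncard_union_le _ _))) _))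
    exact (cov y).imp id (Or.imp (Or.imp (⟨·, hy⟩) (⟨·, hy⟩)) (Or.imp (⟨·, hy⟩) (⟨·, hy⟩)))
  have u2 : Oᶜ.ncard ≤ (b1 + b2) + (b3 + b4) := by
    rw [← f1, ← f2, ← f3, ← f4]
    refine (Set.ncard_le_ncard fun y hy => ?_).trans
      ((Set.ncard_union_le _ _).trans (Nat.add_le_add (Set.ncard_union_le _ _) (Set.ncard_union_le _ _)))
    exact ((cov y).resolve_left fun e => hy (e ▸ x0O)).imp (Or.imp (⟨·, hy⟩) (⟨·, hy⟩)) (Or.imp (⟨·, hy⟩) (⟨·, hy⟩))
  have u3 := Set.ncard_add_ncard_compl O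
  rw [Nat.card_eq_fintype_card, Fintype.card_fin] at u3
  have u4 : O.ncard ∣ Nat.card K := Dvd.intro _ (card_orb K x0).symm
  have u5 := u4.trans (card_X ▸ card_subgroup_dvd_card K)
  have u6 := Nat.odd_iff.1 (ho.of_dvd_nat u4)
  have u7 : O.ncard = 1 := by
    have : O.ncard = 1 + ((a1 + a2) + (a3 + a4)) := by omega
    rw [this] at u5 u6 ⊢
    rcases d1 with rfl | rfl <;> rcases d2 with rfl | rfl <;> rcases d3 with rfl | rfl <;>
      rcases d4 with rfl | rfl <;> simp_all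
  obtain ⟨y, hy⟩ := Set.ncard_eq_one.1 u7
  refine eq_bot_iff.2 fun k hk => md.base k fun x _ => ?_
  obtain ⟨g, rfl⟩ := trans x0 x
  have : (g⁻¹ * k * g) • x0 = x0 := (hy.le ⟨_, by simpa using hK.conj_mem k hk g⁻¹, rfl⟩).trans (hy.le x0O).symm
  rwa [mul_smul, mul_smul, inv_smul_eq_iff] at this

end Cfsg.Agent.HeR
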